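import Cfsg.Agent.MinSp.Cases

/-!
The least degree of a nontrivial transitive action of the symplectic group, at least three field
elements.
-/

set_option autoImplicit false
set_option linter.unusedSectionVars false

namespace Cfsg.Agent.MinSp

open Cfsg.Agent.Forms Cfsg.Agent.Linear.Symp
open scoped Matrix Classical LinearAlgebra.Projectivization

variable {F : Type*} [Field F] [Fintype F] {m : ℕ}
  {X : Type*} [MulAction (Matrix.symplecticGroup (Fin m) F) X] [Fintype X]

local notation "V" => (Fin m ⊕ Fin m → F)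
local notation "G" => Matrix.symplecticGroup (Fin m) F
local notation "B" => sympBil m F

variable {b : Pair F m}

theorem exists_ne_zero_sub (b : Pair F m) (hm : 2 ≤ m) : ∃ v : sub b, v ≠ 0 := by
  let _ : Fintype (sub b) := Fintype.ofFinite _
  have := one_lt_card_sub b hm
  rw [Nat.card_eq_fintype_card, Fintype.one_lt_card_iff] at this
  obtain ⟨u, w, huw⟩ := this
  rcases eq_or_ne u 0 with rfl | hu
  · exact ⟨w, huw.symm⟩
  · exact ⟨u, hu⟩

/-- the number of lines of the orthogonal space -/
theorem exists_lines (b : Pair F m) :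
    ∃ P, Nat.card (sub b) = (Fintype.card F - 1) * P + 1 ∧
      (Fintype.card F ^ (2 * m) - 1) / (Fintype.card F - 1) =
        Fintype.card F ^ 2 * P + Fintype.card F + 1 ∧
      (m = 2 → P = Fintype.card F + 1) := by
  have hm := pos_of_pair b
  have hq : 2 ≤ Fintype.card F := Fintype.one_lt_card
  obtain ⟨P, hP⟩ := Nat.sub_one_dvd_pow_sub_one (Fintype.card F) (2 * (m - 1))
  have hpos : 0 < Fintype.card F ^ (2 * (m - 1)) := pow_pos (by omega) _
  have hD : Fintype.card F ^ (2 * (m - 1)) = (Fintype.card F - 1) * P + 1 := by omega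
  refine ⟨P, by rw [card_sub', hD], ?_, fun h2 => ?_⟩
  · have e : Fintype.card F ^ (2 * m) = Fintype.card F ^ 2 * Fintype.card F ^ (2 * (m - 1)) := by
      rw [← pow_add]; congr 1; omega
    obtain ⟨r, hr⟩ := Nat.exists_eq_add_of_le (show 1 ≤ Fintype.card F by omega)
    rw [hr, Nat.add_sub_cancel_left] at hD
    rw [e, hr, Nat.add_sub_cancel_left, hD]
    refine Nat.div_eq_of_eq_mul_left (by omega) ?_
    refine Nat.sub_eq_of_eq_add ?_
    ring
  · subst h2
    obtain ⟨r, hr⟩ := Nat.exists_eq_add_of_le (show 1 ≤ Fintype.card F by omega)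
    rw [hr, Nat.add_sub_cancel_left] at hD
    norm_num at hD
    have : r * (r + 2) = r * P := by nlinarith
    have := Nat.eq_of_mul_eq_mul_left (by omega) this
    omega

/-- consequences of a common fixed point of the transvections of the orthogonal space -/
theorem exists_ne_top_fixZ (hm : 2 ≤ m) {x : X} (hU : U b x = ⊥)
    (hfix : ∀ (v : sub b) c, tau (v : V) c • x = x) :
    ∀ g : G, ∀ v : sub b, v ≠ 0 → app g b.p = (v : V) → U b (g⁻¹ • x) ≠ ⊤ := by
  intro g v hv hg ht
  have hZ : Z0 b (g⁻¹ • x) = ⊤ :=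
    (Finset.mem_filter.1 (inv_smul_mem_fixZ hg (hfix v))).2
  have ha : B (app g⁻¹ b.p) b.p = 0 := by
    have := sympBil_app g (app g⁻¹ b.p) b.p
    rwa [← app_mul, mul_inv_cancel, app_one, hg, bpw, eq_comm] at this
  obtain ⟨w, s, hws, -⟩ := short_p_eq b ha
  have h1 : short b.p (v : V) 1 • x = x := by
    have e : short b.p (v : V) 1 = g * short (app g⁻¹ b.p) b.p 1 * g⁻¹ := by
      rw [short_conj, ← app_mul, mul_inv_cancel, app_one, hg]
    rw [e, hws, mul_smul, mul_smul, fixed_top hZ ht, smul_inv_smul]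
  have e2 : short b.p (v : V) (1 : F) = short (v : V) b.p 1 := by
    refine sp_ext fun z => ?_
    rw [app_short (bpw v), app_short (bwp v)]
    abel
  obtain ⟨w', s', hws', hw'⟩ := short_p_eq b (bwp v)
  rw [bwp', zero_smul, sub_zero] at hw'
  rw [e2, hws'] at h1
  have : w' ∈ U b x := ⟨s', h1⟩
  rw [hU, AddSubgroup.mem_bot] at this
  exact hv (Subtype.ext (hw'.symm.trans (congrArg Subtype.val this)))

theorem count_top (hm : 2 ≤ m) [Fintype (sub b)] {Z : AddSubgroup F} {x : X}
    (hx : x ∈ layer X b Z) (hU : U b x = ⊥) (hL : layer X b Z = orb b x) :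
    Nat.card Z * (layer X b Z).card = Fintype.card F * Nat.card (sub b) := by
  have h := card_orb_mul (b := b) x
  rw [hU, AddSubgroup.card_bot, one_mul, (mem_layer.1 hx).1] at h
  rw [hL, mul_comm, h, mul_comm]

set_option maxHeartbeats 2000000 in
/-- the small-degree dichotomy -/
theorem bound_or (hq : 3 ≤ Fintype.card F) (hm : 2 ≤ m) (hexc : ¬(m = 2 ∧ Fintype.card F = 3))
    (htr : ∃ (g : G) (x : X), g • x ≠ x) {P : ℕ}
    (hP : Nat.card (sub b) = (Fintype.card F - 1) * P + 1)
    (hP2 : m = 2 → P = Fintype.card F + 1) :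
    Fintype.card F ^ 2 * P + Fintype.card F + 1 ≤ Fintype.card X ∨
      (Fintype.card F ^ 2 * P + Fintype.card F ≤ Fintype.card X ∧ (fixZ X b).Nonempty) := by
  let _ : Fintype (sub b) := Fintype.ofFinite _
  set q := Fintype.card F with hqd
  set D := Nat.card (sub b) with hD
  have hD2 : q ^ 2 ≤ D := sq_le_card_sub b hm
  obtain ⟨r, hr⟩ := Nat.exists_eq_add_of_le (show 1 ≤ q by omega)
  have hDr : D = r * P + 1 := by rw [hP, hr, Nat.add_sub_cancel_left]
  have hPpos : 1 ≤ P := by
    rcases Nat.eq_zero_or_pos P with h | h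
    · rw [h, mul_zero] at hDr; rw [hDr, hr] at hD2; nlinarith
    · exact h
  have hsel : ∃ x : X, Z0 b x ≠ ⊤ ∧ U b x ≠ ⊤ ∧ ((2 : F) ≠ 0 → Z0 b x = ⊥) := by
    by_cases h2 : (2 : F) = 0
    · obtain ⟨x, h1, h3⟩ := select_two (b := b) h2 hq hm htr
      exact ⟨x, h1, h3, fun h => absurd h2 h⟩
    · obtain ⟨x, h1, h3⟩ := select_odd (b := b) h2 hm htr
      exact ⟨x, by rw [h1]; exact bot_ne_top, h3, fun _ => h1⟩
  obtain ⟨x1, hZ1, hU1, hodd⟩ := hsel
  by_cases hbot : Z0 b x1 = ⊥
  swap
  · left
    have h2 : (2 : F) = 0 := by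
      by_contra h; exact hbot (hodd h)
    have hx1 : (layer X b (Z0 b x1)).Nonempty := ⟨x1, mem_layer.2 ⟨rfl, hU1⟩⟩
    refine le_trans ?_ (scaled_bound h2 hm hx1 hbot hZ1)
    rw [← hqd, ← hD, hDr, hr]
    nlinarith
  have hne : (layer X b (⊥ : AddSubgroup F)).Nonempty := ⟨x1, mem_layer.2 ⟨hbot, hU1⟩⟩
  obtain ⟨c, hc1, hcnt, hn, hcard⟩ := exists_cnt hm hne
  rw [AddSubgroup.card_bot, one_mul, ← hqd, ← hD] at hcard
  set L := layer X b (⊥ : AddSubgroup F) with hLdef
  set n := (lorbs X b (⊥ : AddSubgroup F)).card with hndef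
  have hLX : L.card ≤ Fintype.card X := Finset.card_le_univ _
  have hdis : L.card + (fixZ X b).card ≤ Fintype.card X := by
    rw [← Finset.card_union_of_disjoint disjoint_layer_fixZ]; exact Finset.card_le_univ _
  have hD1 : D - 1 = r * P := by omega
  rw [hD1] at hcard
  by_cases hc2 : 2 ≤ c
  · left
    refine le_trans ?_ hLX
    rw [hcard, hr]
    have h1 : r * P * 2 ≤ r * P * c := Nat.mul_le_mul_left _ hc2
    rw [hDr, hr] at hD2
    have h3 : r + 2 ≤ P := by
      refine Nat.le_of_mul_le_mul_left ?_ (show 0 < r by omega)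
      nlinarith
    nlinarith [Nat.mul_le_mul_left ((1 + r) * r) h3, Nat.mul_le_mul_left (1 + r) h1,
      Nat.mul_le_mul_left (1 + r) hn]
  obtain rfl : c = 1 := by omega
  rw [mul_one] at hcard
  have hs : Simple X b (⊥ : AddSubgroup F) := simple_of_cnt hcnt
  rcases hs.cases hm hne (by rw [AddSubgroup.card_bot, one_mul, ← hqd, ← hD, hD1]; exact hcard)
    with ⟨x, hx, hW, hL⟩ | ⟨hline, hlines⟩ | hlines
  · -- regular
    have hU : U b x = ⊥ := U_of_W_top hW
    have hLcard := count_top hm hx hU hL
    rw [AddSubgroup.card_bot, one_mul, ← hqd, ← hD] at hLcard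
    obtain ⟨x0, hx0, hfix⟩ := exists_fixed_top hq hm hexc (Or.inl rfl) hL hU
    have hU0 : U b x0 = ⊥ := by rw [U_of_mem hx0, hU]
    have hx0L : x0 ∈ L := hLdef ▸ layer_of_mem hx hx0
    obtain ⟨v0, hv0⟩ := exists_ne_zero_sub b hm
    obtain ⟨g, hg⟩ := exists_app_eq b.p_ne (show (v0 : V) ≠ 0 from fun e => hv0 (Subtype.ext e))
    have hy : g⁻¹ • x0 ∈ layer X b (⊤ : AddSubgroup F) := mem_layer.2
      ⟨(Finset.mem_filter.1 (inv_smul_mem_fixZ hg (hfix v0))).2,
        exists_ne_top_fixZ hm hU0 hfix g v0 hv0 hg⟩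
    have hf : (fixZ X b).Nonempty := ⟨_, inv_smul_mem_fixZ hg (hfix v0)⟩
    obtain ⟨c', hc', hcnt', hn', hcard'⟩ := exists_cnt hm ⟨_, hy⟩
    rw [AddSubgroup.card_top, Nat.card_eq_fintype_card (α := F), ← hqd, ← hD, hD1] at hcard'
    have hcard'' := Nat.eq_of_mul_eq_mul_left (show 0 < q by omega) hcard'
    set n' := (lorbs X b (⊤ : AddSubgroup F)).card
    have hsubT : (layer X b (⊤ : AddSubgroup F)).card ≤ (fixZ X b).card :=
      Finset.card_le_card fun z hz => Finset.mem_filter.2 ⟨Finset.mem_univ _, (mem_layer.1 hz).1⟩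
    rw [hLcard, hDr] at hdis
    by_cases hc2' : 2 ≤ c'
    · left
      have h1 : r * P * 2 ≤ r * P * c' := Nat.mul_le_mul_left _ hc2'
      have h3 : P ≤ r * P := Nat.le_mul_of_pos_left _ (by omega)
      rw [hr] at hdis ⊢
      nlinarith
    obtain rfl : c' = 1 := by omega
    rw [mul_one] at hcard''
    rcases (simple_of_cnt hcnt').cases hm ⟨_, hy⟩ (by
        rw [AddSubgroup.card_top, Nat.card_eq_fintype_card (α := F), ← hqd, ← hD, hD1, hcard''])
      with ⟨x', hx', hW', hL'⟩ | ⟨-, hlines'⟩ | hlines'
    · have hU' : U b x' = ⊥ := U_of_W_top hW'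
      obtain ⟨y', hy', hfix'⟩ := exists_fixed_top hq hm hexc (Or.inr rfl) hL' hU'
      have hU'' : U b y' = ⊥ := by rw [U_of_mem hy', hU']
      have hy'L := layer_of_mem hx' hy'
      rcases Nat.lt_or_ge m 3 with hm2 | hm3
      · right
        have hmeq : m = 2 := by omega
        refine ⟨?_, hf⟩
        -- fixed points of one transvection group
        let K : Finset (sub b) := Finset.univ.filter fun a => pair b v0 a ∈ ({0} : Finset F)
        have hK : q * K.card = D := by
          have := card_pair_fiber hv0 ({0} : Finset F)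
          rwa [Finset.card_singleton, one_mul] at this
        let A := (K ×ˢ (Finset.univ : Finset F)).image fun t => qel b t.1 t.2 • x0
        let A' := K.image fun w => qel b w 0 • y'
        have hA : A.card = K.card * q := by
          rw [Finset.card_image_of_injective _ fun s t h => ?_, Finset.card_product, Finset.card_univ]
          have h1 : ((qel b t.1 t.2)⁻¹ * qel b s.1 s.2) • x0 = x0 := by
            rw [mul_smul, show qel b s.1 s.2 • x0 = qel b t.1 t.2 • x0 from h, inv_smul_smul]
          rw [qel_inv, qel_mul] at h1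
          have h3 : -t.1 + s.1 ∈ U b x0 := ⟨_, h1⟩
          rw [hU0, AddSubgroup.mem_bot, neg_add_eq_zero] at h3
          rw [h3, neg_add_cancel, Submodule.coe_neg, map_neg, bil_self, neg_zero, add_zero] at h1
          have h5 : -t.2 + s.2 ∈ Z0 b x0 := h1
          rw [(mem_layer.1 hx0L).1, AddSubgroup.mem_bot, neg_add_eq_zero] at h5
          exact Prod.ext h3.symm h5.symm
        have hA' : A'.card = K.card := by
          refine Finset.card_image_of_injective _ fun s t h => ?_
          have h1 : ((qel b t 0)⁻¹ * qel b s 0) • y' = y' := by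
            rw [mul_smul, show qel b s 0 • y' = qel b t 0 • y' from h, inv_smul_smul]
          rw [qel_inv, qel_mul] at h1
          have h3 : -t + s ∈ U b y' := ⟨_, h1⟩
          rw [hU'', AddSubgroup.mem_bot, neg_add_eq_zero] at h3
          exact h3.symm
        have hsub : A ∪ A' ⊆ Finset.univ.filter fun z : X => ∀ c, tau (v0 : V) c • z = z := by
          have hcomm : ∀ w ∈ K, ∀ s c, tau (v0 : V) c * qel b w s = qel b w s * tau (v0 : V) c := by
            intro w hw s c
            simp only [K, Finset.mem_filter, Finset.mem_univ, true_and, Finset.mem_singleton] at hw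
            rw [tau_mul_qel, tauLev_map_eq, hw, mul_zero, zero_smul, add_zero]
          intro z hz
          refine Finset.mem_filter.2 ⟨Finset.mem_univ _, fun c => ?_⟩
          rcases Finset.mem_union.1 hz with h | h
          · obtain ⟨t, ht, rfl⟩ := Finset.mem_image.1 h
            rw [← mul_smul, hcomm _ (Finset.mem_product.1 ht).1, mul_smul, hfix]
          · obtain ⟨w, hw, rfl⟩ := Finset.mem_image.1 h
            rw [← mul_smul, hcomm _ hw, mul_smul, hfix']
        have hdisA : Disjoint A A' := by
          rw [Finset.disjoint_left]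
          intro z hz hz'
          obtain ⟨t, -, rfl⟩ := Finset.mem_image.1 hz
          obtain ⟨w, -, hw⟩ := Finset.mem_image.1 hz'
          have h1 := Z0_smul (b := b) (mem_Q b t.1 t.2) x0
          rw [← hw, Z0_smul (mem_Q b w 0) y', (mem_layer.1 hy'L).1, (mem_layer.1 hx0L).1] at h1
          exact top_ne_bot h1
        have hf2 := (Finset.card_le_card hsub).trans
          (card_fixed_le (b := b) (show (v0 : V) ≠ 0 from fun e => hv0 (Subtype.ext e)))
        rw [Finset.card_union_of_disjoint hdisA, hA, hA'] at hf2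
        have hKq : K.card = q := by
          have h4 : D = q * q := by rw [hD, card_sub', hmeq]; ring
          exact Nat.eq_of_mul_eq_mul_left (show 0 < q by omega) (hK.trans h4)
        rw [hKq] at hf2
        have hP' := hP2 hmeq
        rw [hP', hr] at hdis ⊢
        rw [hr] at hf2
        nlinarith
      · -- impossible in higher dimension
        exfalso
        obtain ⟨w, hw0, hvw, hind⟩ := exists_orth_indep hm3 hv0
        have hZy : Z0 b (g⁻¹ • y') = ⊤ :=
          (Finset.mem_filter.1 (inv_smul_mem_fixZ hg (hfix' v0))).2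
        have hne' := exists_ne_top_fixZ hm hU'' hfix' g v0 hv0 hg
        have hUy : U b (g⁻¹ • y') = ⊥ := by
          have : g⁻¹ • y' ∈ orb b x' := hL' ▸ mem_layer.2 ⟨hZy, hne'⟩
          rw [U_of_mem this, hU']
        have hk : (tau ((w + v0 : sub b) : V) 1 * tau (w : V) (-1)) • y' = y' := by
          rw [mul_smul, hfix', hfix']
        set a := app g⁻¹ (w : V) with ha
        have hga : app g a = (w : V) := by rw [ha, ← app_mul, mul_inv_cancel, app_one]
        have hap : B a b.p = 0 := by
          have := sympBil_app g a b.p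
          rw [hga, hg] at this
          rw [← this, bil_swap, show B (v0 : V) (w : V) = -(B (w : V) (v0 : V)) from bil_swap _ _,
            show B (w : V) (v0 : V) = pair b v0 w from rfl, hvw, neg_zero, neg_zero]
        have e : tau (a + b.p) 1 * tau a (-1) =
            qel b ⟨a - B a b.p' • b.p, by constructor <;> simp [bil_self, hap, b.h]⟩
              (2 * B a b.p' + 1) := by
          refine sp_ext fun z => ?_
          have hpa : B b.p a = 0 := by rw [bil_swap, hap, neg_zero]
          rw [app_mul, app_tau, app_tau, app_qel]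
          simp only [map_add, map_sub, map_smul, LinearMap.add_apply, LinearMap.smul_apply, hap, hpa,
            bil_self, smul_eq_mul]
          module
        have hy2 : (tau (a + b.p) 1 * tau a (-1)) • (g⁻¹ • y') = g⁻¹ • y' := by
          have e2 : g * (tau (a + b.p) 1 * tau a (-1)) * g⁻¹ =
              tau ((w + v0 : sub b) : V) 1 * tau (w : V) (-1) := by
            rw [← conj_mul, tau_conj, tau_conj, app_add, hga, hg, Submodule.coe_add]
          rw [← e2, mul_smul, mul_smul] at hk
          exact eq_inv_smul_iff.2 hk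
        rw [e] at hy2
        have hmem : (⟨a - B a b.p' • b.p, by constructor <;> simp [bil_self, hap, b.h]⟩ : sub b) ∈
            U b (g⁻¹ • y') := ⟨_, hy2⟩
        rw [hUy, AddSubgroup.mem_bot, Subtype.ext_iff, Submodule.coe_zero, sub_eq_zero] at hmem
        refine hind (B a b.p') (Subtype.ext ?_)
        calc (w : V) = app g a := hga.symm
          _ = app g (B a b.p' • b.p) := congrArg _ hmem
          _ = _ := by rw [app_smul, hg, Submodule.coe_smul]
    all_goals
      right
      refine ⟨?_, hf⟩
      rw [← hqd, ← hD, hD1, hr, Nat.add_sub_cancel_left] at hlines'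
      have h3 : P ≤ n' := Nat.le_of_mul_le_mul_right (by nlinarith) (show 0 < r by omega)
      rw [hr] at hdis ⊢
      nlinarith
  · -- hyperplanes
    obtain ⟨x, hx⟩ := hne
    obtain ⟨v, hv, hW⟩ := hline x hx
    rcases Nat.lt_or_ge m 3 with hm2 | hm3
    swap
    · exact (line_false hm3 hq hs hx hv hW).elim
    have hmeq : m = 2 := by omega
    have hq4 : 4 ≤ q := by
      by_contra h
      exact hexc ⟨hmeq, by omega⟩
    have hP' := hP2 hmeq
    right
    obtain ⟨y, hy, hfix⟩ := exists_fixed_line hq4 hs rfl hx hv hW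
    let A := (Finset.univ : Finset F).image fun s => qel b 0 s • y
    have hA : A.card = q := by
      refine Finset.card_image_of_injective _ fun s t h => ?_
      have h1 : t - s ∈ Z0 b y := by
        show qel b 0 (t - s) • y = y
        rw [sub_eq_neg_add, z_add, mul_smul, show qel b 0 t • y = qel b 0 s • y from h.symm,
          ← mul_smul, ← z_add, neg_add_cancel, qel_zero, one_smul]
      rw [Z0_of_mem hy, (mem_layer.1 hx).1, AddSubgroup.mem_bot, sub_eq_zero] at h1
      exact h1.symm
    have hsub : A ⊆ Finset.univ.filter fun z : X => ∀ c, tau (v : V) c • z = z := fun z hz => by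
      obtain ⟨s, -, rfl⟩ := Finset.mem_image.1 hz
      refine Finset.mem_filter.2 ⟨Finset.mem_univ _, fun c => ?_⟩
      rw [← mul_smul, tau_qel_zero, mul_smul, hfix]
    have hf2 := (Finset.card_le_card hsub).trans
      (card_fixed_le (b := b) (show (v : V) ≠ 0 from fun e => hv (Subtype.ext e)))
    rw [hA] at hf2
    refine ⟨?_, Finset.card_pos.1 (by omega)⟩
    rw [← hqd, ← hD, hD1, hr, Nat.add_sub_cancel_left, mul_comm r P] at hlines
    have hnP : n = P := Nat.eq_of_mul_eq_mul_right (show 0 < r by omega) hlines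
    rw [hcard, hnP] at hdis
    rw [hr] at hdis hf2 ⊢
    nlinarith
  · left
    refine le_trans ?_ hLX
    rw [← hqd, ← hD, hD1, hr, Nat.add_sub_cancel_left] at hlines
    have h3 : 2 * P ≤ n := Nat.le_of_mul_le_mul_right (by nlinarith) (show 0 < r by omega)
    rw [hcard, hr]
    nlinarith [Nat.mul_le_mul_left (1 + r) h3, Nat.mul_le_mul_left (1 + r) hPpos]

attribute [local instance] pointAction

/-- counting incidences with the transvection groups -/
theorem incidence [MulAction.IsPretransitive (Matrix.symplecticGroup (Fin m) F) X]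
    [Fintype (ℙ F (Fin m ⊕ Fin m → F))] (x0 : X) :
    ∃ K0, Fintype.card X * K0 = Fintype.card (ℙ F (Fin m ⊕ Fin m → F)) * (fixZ X b).card := by
  let fib : X → Finset (ℙ F (Fin m ⊕ Fin m → F)) := fun x =>
    Finset.univ.filter fun l => ∀ c, tau l.rep c • x = x
  have hconst : ∀ x y : X, (fib x).card ≤ (fib y).card := by
    intro x y
    obtain ⟨g, hg⟩ := MulAction.exists_smul_eq G x y
    refine Finset.card_le_card_of_injOn (fun l => g • l) (fun l hl => ?_)
      (MulAction.injective g).injOn
    simp only [fib, Finset.mem_coe, Finset.mem_filter, Finset.mem_univ, true_and] at hl ⊢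
    intro c
    obtain ⟨hv', hgv⟩ := smul_mk g (Projectivization.rep_nonzero l)
    rw [Projectivization.mk_rep] at hgv
    obtain ⟨a, ha⟩ := Projectivization.exists_smul_eq_mk_rep F (app g l.rep) hv'
    rw [hgv, ← ha, Units.smul_def, tau_smul, ← tau_conj, ← hg, mul_smul, mul_smul, inv_smul_smul, hl]
  refine ⟨(fib x0).card, ?_⟩
  have h1 : ∀ l : ℙ F (Fin m ⊕ Fin m → F),
      (Finset.univ.filter fun x : X => ∀ c, tau l.rep c • x = x).card = (fixZ X b).card := by
    intro l
    refine le_antisymm (card_fixed_le (Projectivization.rep_nonzero l)) ?_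
    obtain ⟨g, hg⟩ := exists_app_eq b.p_ne (Projectivization.rep_nonzero l)
    refine Finset.card_le_card_of_injOn (fun x => g • x) (fun x hx => ?_)
      (MulAction.injective g).injOn
    simp only [Finset.mem_coe, Finset.mem_filter, Finset.mem_univ, true_and]
    intro c
    rw [← hg, ← tau_conj, ← qel_zero_left, mul_smul, mul_smul, inv_smul_smul,
      mem_fixZ.1 (Finset.mem_coe.1 hx)]
  calc Fintype.card X * (fib x0).card = ∑ x : X, (fib x).card := by
        rw [Finset.sum_congr rfl fun x _ => le_antisymm (hconst x x0) (hconst x0 x),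
          Finset.sum_const, Finset.card_univ, smul_eq_mul]
    _ = ∑ l : ℙ F (Fin m ⊕ Fin m → F),
          (Finset.univ.filter fun x : X => ∀ c, tau l.rep c • x = x).card := by
        simp only [fib, Finset.card_filter]
        exact Finset.sum_comm
    _ = _ := by
        rw [Finset.sum_congr rfl fun l _ => h1 l, Finset.sum_const, Finset.card_univ, smul_eq_mul]

theorem card_points [Fintype (ℙ F (Fin m ⊕ Fin m → F))] :
    Fintype.card (ℙ F (Fin m ⊕ Fin m → F)) =
      (Fintype.card F ^ (2 * m) - 1) / (Fintype.card F - 1) := by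
  rw [← Nat.card_eq_fintype_card, Projectivization.card'', Nat.card_fun, Nat.card_sum,
    Nat.card_fin, Nat.card_eq_fintype_card (α := F), ← two_mul]

/-- the least degree -/
theorem bound (hq : 3 ≤ Fintype.card F) (hm : 2 ≤ m) (hexc : ¬(m = 2 ∧ Fintype.card F = 3))
    [MulAction.IsPretransitive (Matrix.symplecticGroup (Fin m) F) X]
    (htr : ∃ (g : G) (x : X), g • x ≠ x) :
    (Fintype.card F ^ (2 * m) - 1) / (Fintype.card F - 1) ≤ Fintype.card X := by
  obtain ⟨b⟩ := exists_pair (F := F) (m := m) (by omega)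
  obtain ⟨P, hP, hN, hP2⟩ := exists_lines b
  rw [hN]
  rcases bound_or (b := b) hq hm hexc htr hP hP2 with h | ⟨h, hf⟩
  · exact h
  by_contra hlt
  have hk : Fintype.card X = Fintype.card F ^ 2 * P + Fintype.card F := by omega
  let _ : Fintype (ℙ F (Fin m ⊕ Fin m → F)) := Fintype.ofFinite _
  obtain ⟨g, x, hgx⟩ := htr
  obtain ⟨K0, hK0⟩ := incidence (b := b) x
  rw [card_points, hN, ← hk] at hK0
  obtain ⟨x1, hx1⟩ := exists_Z0_ne_top (b := b) ⟨g, x, hgx⟩
  have hflt : (fixZ X b).card < Fintype.card X :=
    Finset.card_lt_univ_of_notMem (x := x1) fun h => hx1 (Finset.mem_filter.1 h).2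
  have hdvd : Fintype.card X ∣ (fixZ X b).card := by
    exact (Nat.dvd_add_right (dvd_mul_right (Fintype.card X) (fixZ X b).card)).1
      ⟨K0, by rw [hK0]; ring⟩
  exact absurd (Nat.le_of_dvd hf.card_pos hdvd) (not_le.2 hflt)

end Cfsg.Agent.MinSp
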