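import Cfsg.Agent.MinSp.Fixed

/-!
The possible shapes of the layers of a small action.
-/

set_option autoImplicit false
set_option linter.unusedSectionVars false

namespace Cfsg.Agent.MinSp

open Cfsg.Agent.Forms Cfsg.Agent.Linear.Symp
open scoped Matrix Classical

variable {F : Type*} [Field F] [Fintype F] {m : ℕ}
  {X : Type*} [MulAction (Matrix.symplecticGroup (Fin m) F) X] [Fintype X]

local notation "V" => (Fin m ⊕ Fin m → F)
local notation "G" => Matrix.symplecticGroup (Fin m) F
local notation "B" => sympBil m F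

variable {b : Pair F m}

variable (X b) in
/-- the points fixed by the centre of the radical -/
noncomputable def fixZ : Finset X := Finset.univ.filter fun x => Z0 b x = ⊤

theorem mem_fixZ {x : X} : x ∈ fixZ X b ↔ ∀ s, qel b 0 s • x = x := by
  simp only [fixZ, Finset.mem_filter, Finset.mem_univ, true_and]
  exact ⟨fun h s => (show s ∈ Z0 b x by rw [h]; trivial), fun h => eq_top_iff.2 fun s _ => h s⟩

/-- pulling back a point fixed by the transvections at a vector -/
theorem inv_smul_mem_fixZ {g : G} {v : V} (hg : app g b.p = v) {x : X}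
    (hx : ∀ c, tau v c • x = x) : g⁻¹ • x ∈ fixZ X b := by
  refine mem_fixZ.2 fun s => ?_
  have e : tau v s = g * qel b 0 s * g⁻¹ := by rw [qel_zero_left, tau_conj, hg]
  have h := hx s
  rw [e, mul_smul, mul_smul] at h
  exact eq_inv_smul_iff.2 h

theorem card_fixed_le {v : V} (hv : v ≠ 0) :
    (Finset.univ.filter fun x : X => ∀ c, tau v c • x = x).card ≤ (fixZ X b).card := by
  obtain ⟨g, hg⟩ := exists_app_eq b.p_ne hv
  refine Finset.card_le_card_of_injOn (fun x => g⁻¹ • x) (fun x hx => ?_)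
    (MulAction.injective g⁻¹).injOn
  simp only [Finset.mem_coe, Finset.mem_filter, Finset.mem_univ, true_and] at hx
  exact Finset.mem_coe.2 (inv_smul_mem_fixZ hg hx)

theorem disjoint_layer_fixZ : Disjoint (layer X b (⊥ : AddSubgroup F)) (fixZ X b) := by
  rw [Finset.disjoint_left]
  intro x hx hx'
  have h1 := (mem_layer.1 hx).1
  rw [(Finset.mem_filter.1 hx').2] at h1
  exact top_ne_bot h1

theorem fixed_top {x : X} (hZ : Z0 b x = ⊤) (hU : U b x = ⊤) (w : sub b) (s : F) :
    qel b w s • x = x := by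
  obtain ⟨s', hs'⟩ : w ∈ U b x := by rw [hU]; trivial
  have h : qel b 0 (s - s') • x = x := by
    have : s - s' ∈ Z0 b x := by rw [hZ]; trivial
    exact this
  rw [show qel b w s = qel b w s' * qel b 0 (s - s') by rw [qel_mul]; simp, mul_smul, h, hs']

theorem exists_orth_indep (hm : 3 ≤ m) {v : sub b} (hv : v ≠ 0) :
    ∃ u : sub b, u ≠ 0 ∧ pair b v u = 0 ∧ ∀ t : F, u ≠ t • v := by
  let _ : Fintype (sub b) := Fintype.ofFinite _
  by_contra! hno
  have hK := card_pair_fiber hv ({0} : Finset F)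
  rw [Finset.card_singleton, one_mul] at hK
  have hle : (Finset.univ.filter fun a => pair b v a ∈ ({0} : Finset F)).card ≤ Fintype.card F := by
    rw [← Finset.card_univ (α := F)]
    refine le_trans (Finset.card_le_card (t := Finset.univ.image fun t : F => t • v)
      fun a ha => ?_) Finset.card_image_le
    simp only [Finset.mem_filter, Finset.mem_univ, true_and, Finset.mem_singleton] at ha
    rcases eq_or_ne a 0 with rfl | h
    · exact Finset.mem_image.2 ⟨0, Finset.mem_univ _, zero_smul _ _⟩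
    · obtain ⟨t, ht⟩ := hno a h ha
      exact Finset.mem_image.2 ⟨t, Finset.mem_univ _, ht.symm⟩
  have h4 : Fintype.card F ^ 4 ≤ Nat.card (sub b) := by
    rw [card_sub']; exact Nat.pow_le_pow_right Fintype.card_pos (by omega)
  have h5 : 2 ≤ Fintype.card F := Fintype.one_lt_card
  nlinarith [Nat.mul_le_mul_left (Fintype.card F) hle,
    Nat.mul_le_mul (Nat.mul_le_mul h5 h5) (le_refl (Fintype.card F * Fintype.card F))]

theorem exists_dual {w v : sub b} (hw : w ≠ 0) (hind : ∀ t : F, v ≠ t • w) :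
    ∃ u : sub b, pair b v u = 0 ∧ pair b w u = 1 := by
  have one : ∀ {z : sub b}, z ≠ 0 → ∃ u, pair b z u = 1 := by
    intro z hz
    obtain ⟨u, hu⟩ := exists_bil_sub hz
    refine ⟨-u, ?_⟩
    show B _ _ = 1
    rw [bil_swap, Submodule.coe_neg, map_neg, hu, neg_neg]
  have lin : ∀ a z u : sub b, ∀ t : F, pair b (a - t • z) u = pair b a u - t * pair b z u :=
    fun a z u t => by simp [pair]
  have lin' : ∀ z u u' : sub b, ∀ t : F, pair b z (u - t • u') = pair b z u - t * pair b z u' :=
    fun z u u' t => by simp [pair]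
  obtain ⟨u1, h1⟩ := one hw
  set a := pair b v u1 with ha
  obtain ⟨u2, h2⟩ := one (z := v - a • w) (sub_ne_zero.2 (hind a))
  rw [lin] at h2
  refine ⟨u1 - a • (u2 - pair b w u2 • u1), ?_, ?_⟩
  · rw [lin', lin', ← ha]; linear_combination (-a) * h2
  · rw [lin', lin', h1]; ring

theorem exists_sq_ne (hq : 4 ≤ Fintype.card F) : ∃ a : F, a ≠ 0 ∧ a ^ 2 ≠ 1 := by
  have h : (({0, 1, -1} : Finset F)).card < (Finset.univ : Finset F).card := by
    rw [Finset.card_univ]
    have := Finset.card_le_three (a := (0 : F)) (b := 1) (c := -1)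
    omega
  obtain ⟨a, -, ha⟩ := Finset.exists_mem_notMem_of_card_lt_card h
  simp only [Finset.mem_insert, Finset.mem_singleton, not_or] at ha
  refine ⟨a, ha.1, fun h => ?_⟩
  rcases sq_eq_one_iff.1 h with h | h
  · exact ha.2.1 h
  · exact ha.2.2 h

/-- the invariant orbit contains a point fixed by the transvections -/
theorem exists_fixed_line (hq : 4 ≤ Fintype.card F) {Z : AddSubgroup F} (hs : Simple X b Z)
    (hZ : Z = ⊥) {x : X} (hx : x ∈ layer X b Z) {v : sub b} (hv : v ≠ 0)
    (hW : ∀ w, w ∈ W b x ↔ ∃ a : F, w = a • v) :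
    ∃ y ∈ orb b x, ∀ c, tau (v : V) c • y = y := by
  let _ : Fintype (sub b) := Fintype.ofFinite _
  have hvW : ∀ a : F, a • v ∈ W b x := fun a => (hW _).2 ⟨a, rfl⟩
  have hv1 : v ∈ W b x := by simpa using hvW 1
  have hsc : ∀ μ : F, scale μ Z = Z := fun μ => by rw [hZ, scale_bot]
  have hO : ∀ e : Lev b, (∃ a : F, e.map v = a • v) → e.g • x ∈ orb b x := by
    rintro e ⟨a, ha⟩
    refine hs.mem_orb_lev e (hsc _) hx hv hv1 ?_
    rw [ha, smul_smul]; exact hvW _
  have hto : ∀ c, (tauLev v c).g • x ∈ orb b x := fun c => hO _ ⟨1, by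
    rw [tauLev_map_eq, one_smul, show pair b v v = 0 from bil_self _, mul_zero, zero_smul,
      add_zero]⟩
  have hU : ∀ (a : F) u, u ∈ U b x → a • u ∈ U b x := fun a u hu => by
    rw [U_of_W_line hv hW] at hu ⊢
    show B _ _ = 0
    rw [Submodule.coe_smul, map_smul, LinearMap.smul_apply, smul_eq_mul,
      show B (u : V) (v : V) = pair b v u from rfl, hu, mul_zero]
  by_cases h2 : (2 : F) = 0
  · obtain ⟨y, hy, hfix⟩ := center_two (x := x) h2 (by omega) (Or.inl (by rw [(mem_layer.1 hx).1, hZ]))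
      hU fun e he => hO e ⟨1, by rw [he, one_smul]⟩
    exact ⟨y, hy, fun c => hfix (tauLev v c) rfl (hto c)⟩
  · obtain ⟨i, hil, hiw, y, hy, hiy, huniq⟩ := center_odd (x := x) h2
      fun e he _ => hO e ⟨-1, by rw [he]; exact (neg_one_smul F v).symm⟩
    obtain ⟨a, ha0, ha⟩ := exists_sq_ne hq
    obtain ⟨h, hhl, hhv⟩ := exists_lev_map hv (smul_ne_zero ha0 hv)
    exact ⟨y, hy, fixed_odd_scaled hil hiw hy hiy huniq hhl hhv ha (hO h ⟨a, hhv⟩) hto⟩

/-- the only orbit of a layer contains a point fixed by the transvections -/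
theorem exists_fixed_top (hq : 3 ≤ Fintype.card F) (hm : 2 ≤ m)
    (hexc : ¬(m = 2 ∧ Fintype.card F = 3)) {Z : AddSubgroup F} (hZ : Z = ⊥ ∨ Z = ⊤) {x : X}
    (hL : layer X b Z = orb b x) (hU : U b x = ⊥) :
    ∃ y ∈ orb b x, ∀ (v : sub b) c, tau (v : V) c • y = y := by
  have hx : x ∈ layer X b Z := hL ▸ mem_orb_self x
  have hsc : ∀ μ : F, μ ≠ 0 → scale μ Z = Z := fun μ hμ => by
    rcases hZ with rfl | rfl
    · exact scale_bot μ
    · exact scale_top hμ
  have hall : ∀ e : Lev b, e.g • x ∈ orb b x := fun e => by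
    have := e.mem_layer hx
    rwa [hsc _ (pow_ne_zero 2 e.hl), hL] at this
  have hUs : ∀ (a : F) u, u ∈ U b x → a • u ∈ U b x := fun a u hu => by
    rw [hU, AddSubgroup.mem_bot] at hu ⊢; rw [hu, smul_zero]
  have hZx : Z0 b x = ⊥ ∨ Z0 b x = ⊤ := by rw [(mem_layer.1 hx).1]; exact hZ
  by_cases h2 : (2 : F) = 0
  · obtain ⟨y, hy, hfix⟩ := center_two (x := x) h2 hq hZx hUs fun e _ => hall e
    exact ⟨y, hy, fun v c => hfix (tauLev v c) rfl (hall _)⟩
  · obtain ⟨i, hil, hiw, y, hy, hiy, huniq⟩ := center_odd (x := x) h2 fun e _ _ => hall e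
    refine ⟨y, hy, fun v c => ?_⟩
    by_cases hv : v = 0
    · rw [hv, Submodule.coe_zero, tau_zero_vec, one_smul]
    by_cases hm3 : 3 ≤ m
    · exact fixed_odd_all h2 hm3 hil hiw hy hiy huniq (fun e _ => hall e) hZx hv c
    · obtain ⟨a, ha0, ha⟩ := exists_sq_ne (F := F) (by omega)
      obtain ⟨h, hhl, hhv⟩ := exists_lev_map hv (smul_ne_zero ha0 hv)
      exact fixed_odd_scaled hil hiw hy hiy huniq hhl hhv ha (hall h) (fun c => hall _) c

/-- hyperplanes only occur in dimension two -/
theorem line_false (hm : 3 ≤ m) (hq : 3 ≤ Fintype.card F) (hs : Simple X b (⊥ : AddSubgroup F))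
    {x : X} (hx : x ∈ layer X b (⊥ : AddSubgroup F)) {v : sub b} (hv : v ≠ 0)
    (hW : ∀ w, w ∈ W b x ↔ ∃ a : F, w = a • v) : False := by
  let _ : Fintype (sub b) := Fintype.ofFinite _
  have hv1 : v ∈ W b x := (hW _).2 ⟨1, (one_smul _ _).symm⟩
  obtain ⟨w, hw0, hvw, hind⟩ := exists_orth_indep hm hv
  have hwv : pair b w v = 0 := by
    show B _ _ = 0
    rw [bil_swap, show B (w : V) (v : V) = pair b v w from rfl, hvw, neg_zero]
  have hind' : ∀ t : F, v ≠ t • w := fun t ht => by
    rcases eq_or_ne t 0 with rfl | h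
    · exact hv (by rw [ht, zero_smul])
    · exact hind t⁻¹ (by rw [ht, inv_smul_smul₀ h])
  obtain ⟨u, huv, huw⟩ := exists_dual hw0 hind'
  have hZ0 : Z0 b x = ⊥ := (mem_layer.1 hx).1
  have hU := U_of_W_line hv hW
  have key : ∀ c : F, ∃ a : sub b, ∀ u' : sub b, pair b v u' = 0 →
      qel b ((c * pair b w u') • w) (2 * B (a : V) ((u' : V) + (c * pair b w u') • (w : V))
        - c * pair b w u' ^ 2) • x = x := by
    intro c
    have ht : (tauLev w c).g • x ∈ orb b x := hs.mem_orb_lev _ (scale_bot _) hx hv hv1 (by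
      rw [show (tauLev w c).l = 1 from rfl, inv_one, one_smul, tauLev_map_eq, hwv, mul_zero,
        zero_smul, add_zero]
      exact hv1)
    obtain ⟨a, r, har⟩ := mem_orb.1 ht
    refine ⟨a, fun u' hu' => ?_⟩
    obtain ⟨s, hs'⟩ := (hU u').2 hu'
    exact tau_stab har.symm hs'
  by_cases h2 : (2 : F) = 0
  · obtain ⟨a, ha⟩ := key 1
    obtain ⟨l, hl0, hl1⟩ := exists_ne_zero_ne_one hq
    obtain ⟨a', ha'⟩ := key l
    have h1 := ha u huv
    have h3 := ha' (l⁻¹ • u) (by
      show B _ _ = 0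
      rw [Submodule.coe_smul, map_smul, LinearMap.smul_apply, smul_eq_mul,
        show B (u : V) (v : V) = pair b v u from rfl, huv, mul_zero])
    rw [show pair b w (l⁻¹ • u) = l⁻¹ * pair b w u by simp [pair], huw, mul_one,
      mul_inv_cancel₀ hl0, h2, zero_mul, one_smul] at h3
    rw [huw, mul_one, h2, zero_mul, one_smul] at h1
    have h4 := qel_sub h3 h1
    rw [hZ0, AddSubgroup.mem_bot] at h4
    field_simp at h4
    exact hl1 (by linear_combination h4)
  · obtain ⟨a, ha⟩ := key 1
    have h1 := ha u huv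
    have h3 := ha (u + u) (by rw [map_add, huv, add_zero])
    rw [map_add, huw] at h3
    rw [huw] at h1
    have h5 := (mul_smul _ _ x).trans ((congrArg _ h1).trans h1)
    rw [qel_mul, show ((1 : F) * 1) • w + ((1 : F) * 1) • w = ((1 : F) * (1 + 1)) • w by module] at h5
    have h4 := qel_sub h5 h3
    rw [hZ0, AddSubgroup.mem_bot] at h4
    simp only [Submodule.coe_smul, Submodule.coe_add, map_add, map_smul, LinearMap.add_apply,
      LinearMap.smul_apply, smul_eq_mul, bil_self] at h4
    exact h2 (by linear_combination h4)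
where
  exists_ne_zero_ne_one {F : Type _} [Field F] [Fintype F] (hq : 3 ≤ Fintype.card F) :
      ∃ l : F, l ≠ 0 ∧ l ≠ 1 := by
    have h : (({0, 1} : Finset F)).card < (Finset.univ : Finset F).card := by
      rw [Finset.card_univ]
      have := Finset.card_le_two (a := (0 : F)) (b := 1)
      omega
    obtain ⟨a, -, ha⟩ := Finset.exists_mem_notMem_of_card_lt_card h
    simp only [Finset.mem_insert, Finset.mem_singleton, not_or] at ha
    exact ⟨a, ha.1, ha.2⟩

/-- scaled layers -/
theorem scaled_bound (h2 : (2 : F) = 0) (hm : 2 ≤ m) {Z : AddSubgroup F} (hne : (layer X b Z).Nonempty)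
    (hbot : Z ≠ ⊥) (htop : Z ≠ ⊤) :
    (Fintype.card F + 2) * Nat.card (sub b) ≤ Fintype.card X := by
  let _ : Fintype (sub b) := Fintype.ofFinite _
  obtain ⟨c, hc1, -, hn, hcard⟩ := exists_cnt hm hne
  set q := Fintype.card F with hqd
  set D := Nat.card (sub b) with hD
  set z := Nat.card Z with hz
  let nzF : Finset F := Finset.univ.filter fun a => a ≠ 0
  let S : Finset (AddSubgroup F) := nzF.image fun μ => scale μ Z
  have hlayers : S.card * (layer X b Z).card ≤ Fintype.card X := by
    calc S.card * (layer X b Z).card = ∑ _Z' ∈ S, (layer X b Z).card := by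
          rw [Finset.sum_const, smul_eq_mul]
      _ ≤ ∑ Z' ∈ S, (layer X b Z').card := by
          refine Finset.sum_le_sum fun Z' hZ' => ?_
          obtain ⟨μ, hμ, rfl⟩ := Finset.mem_image.1 hZ'
          obtain ⟨l, hl⟩ := exists_sqrt h2 μ
          obtain ⟨e, hel, -⟩ := exists_torus b (l := l)
            (fun h => (Finset.mem_filter.1 hμ).2 (by rw [← hl, h, zero_mul]))
          refine Finset.card_le_card_of_injOn (fun x => e.g • x) (fun x hx => ?_)
            (MulAction.injective e.g).injOn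
          have := e.mem_layer hx
          rwa [hel, sq, hl] at this
      _ = (S.biUnion fun Z' => layer X b Z').card := by
          refine (Finset.card_biUnion fun Z1 _ Z2 _ hne' => ?_).symm
          rw [Function.onFun, Finset.disjoint_left]
          intro x h1 h1'
          exact hne' ((mem_layer.1 h1).1.symm.trans (mem_layer.1 h1').1)
      _ ≤ _ := Finset.card_le_univ _
  obtain ⟨d, hd⟩ : z ∣ q := by
    rw [hz, hqd, ← Nat.card_eq_fintype_card]; exact Z.card_addSubgroup_dvd_card
  have hz2 : 2 ≤ z := by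
    by_contra h
    exact hbot (Z.eq_bot_of_card_eq (le_antisymm (by omega) Nat.card_pos))
  have hqpos : 0 < q := Fintype.card_pos
  have hd1 : 2 ≤ d := by
    by_contra h
    interval_cases d
    · omega
    · exact htop (Z.eq_top_of_card_eq (by rw [← hz, Nat.card_eq_fintype_card, ← hqd, hd, mul_one]))
  obtain ⟨a0, ha0⟩ : ∃ a, a ∉ Z := by
    by_contra! h; exact htop (eq_top_iff.2 fun a _ => h a)
  obtain ⟨χ, hχ⟩ := (AddChar.exists_apply_ne_zero (α := F ⧸ Z) (a := QuotientAddGroup.mk' Z a0)).2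
    (fun h => ha0 ((QuotientAddGroup.eq_zero_iff a0).1 h))
  let ψ : AddChar F ℂ := χ.compAddMonoidHom (QuotientAddGroup.mk' Z)
  have hψ : ψ ≠ 1 := fun h => hχ (congrArg (fun η : AddChar F ℂ => η a0) h)
  have hψZ : ∀ s ∈ Z, ψ s = 1 := fun s hs => by
    show χ (QuotientAddGroup.mk' Z s) = 1
    rw [show QuotientAddGroup.mk' Z s = 0 from (QuotientAddGroup.eq_zero_iff s).2 hs,
      AddChar.map_zero_eq_one]
  let ann : AddSubgroup F → Finset F := fun Z' =>
    Finset.univ.filter fun a => ∀ s ∈ Z', ψ (a * s) = 1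
  have hann : ∀ Z' ∈ S, (ann Z').card ≤ d := by
    intro Z' hZ'
    obtain ⟨μ, hμ, rfl⟩ := Finset.mem_image.1 hZ'
    have hz' : Nat.card (scale μ Z) = z :=
      (Nat.card_congr (Z.equivMapOfInjective _ (mul_right_injective₀ (Finset.mem_filter.1 hμ).2)).toEquiv).symm
    let _ : Fintype (F ⧸ scale μ Z) := Fintype.ofFinite _
    have hquot : Nat.card (F ⧸ scale μ Z) = d := by
      have h := AddSubgroup.card_eq_card_quotient_mul_card_addSubgroup (scale μ Z)
      rw [hz', Nat.card_eq_fintype_card (α := F), ← hqd, hd, mul_comm] at h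
      exact (Nat.eq_of_mul_eq_mul_right (by omega) h).symm
    rw [← hquot, Nat.card_eq_fintype_card, ← AddChar.card_eq (α := F ⧸ scale μ Z), ← Finset.card_univ]
    let Φ : F → AddChar (F ⧸ scale μ Z) ℂ := fun a =>
      if h : ∀ s ∈ scale μ Z, ψ (a * s) = 1 then
        AddChar.toAddMonoidHomEquiv.symm (QuotientAddGroup.lift (scale μ Z)
          (AddChar.toAddMonoidHomEquiv (ψ.compAddMonoidHom (AddMonoidHom.mulLeft a)))
          fun s hs => congrArg Additive.ofMul (h s hs))
      else 1
    refine Finset.card_le_card_of_injOn Φ (fun a _ => Finset.mem_univ _) fun a ha a' ha' h => ?_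
    simp only [ann, Finset.mem_coe, Finset.mem_filter, Finset.mem_univ, true_and] at ha ha'
    simp only [Φ, dif_pos ha, dif_pos ha'] at h
    refine sub_eq_zero.1 (eq_zero_of_psi hψ fun x => ?_)
    have hx := congrArg (fun η : AddChar (F ⧸ scale μ Z) ℂ => η (QuotientAddGroup.mk' _ x)) h
    have hx' : ψ (a * x) = ψ (a' * x) := hx
    rw [sub_mul, AddChar.map_sub_eq_div, hx', div_self]
    intro h0
    have := (AddChar.map_add_eq_mul ψ (a' * x) (-(a' * x))).symm
    rw [add_neg_cancel, AddChar.map_zero_eq_one, h0, zero_mul] at this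
    exact zero_ne_one this
  have hcover : q - 1 ≤ S.card * (d - 1) := by
    rw [hqd, ← card_ne_zero_F]
    refine le_trans (Finset.card_le_card (t := S.biUnion fun Z' => (ann Z').erase 0) fun a ha => ?_)
      (Finset.card_biUnion_le_card_mul _ _ _ fun Z' hZ' => ?_)
    · have ha' := (Finset.mem_filter.1 ha).2
      refine Finset.mem_biUnion.2 ⟨scale a⁻¹ Z, Finset.mem_image_of_mem _ (by simp [nzF, ha']), ?_⟩
      refine Finset.mem_erase.2 ⟨ha', Finset.mem_filter.2 ⟨Finset.mem_univ _, ?_⟩⟩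
      rintro s ⟨t, ht, rfl⟩
      show ψ (a * (a⁻¹ * t)) = 1
      rw [mul_inv_cancel_left₀ ha']
      exact hψZ t ht
    · rw [Finset.card_erase_of_mem (by simp [ann])]
      exact Nat.sub_le_sub_right (hann Z' hZ') 1
  have hDpos : 1 < D := one_lt_card_sub b hm
  have hS3 : 3 ≤ S.card := by
    by_contra h
    have h1 : S.card * (d - 1) ≤ 2 * (d - 1) := Nat.mul_le_mul_right _ (by omega)
    have h3 : 2 * d ≤ q := hd ▸ Nat.mul_le_mul_right d hz2
    omega
  have hlayer : d * D ≤ (layer X b Z).card := by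
    refine Nat.le_of_mul_le_mul_left ?_ (show 0 < z by omega)
    rw [← mul_assoc, ← hd, hcard]
    refine Nat.mul_le_mul_left _ ?_
    have := Nat.mul_le_mul_left (D - 1) hc1
    omega
  refine le_trans ?_ hlayers
  calc (q + 2) * D ≤ (S.card * d) * D := Nat.mul_le_mul_right _ (by
        obtain ⟨d', rfl⟩ := Nat.exists_eq_add_of_le (show 1 ≤ d by omega)
        rw [Nat.add_sub_cancel_left] at hcover
        rw [mul_add, mul_one]
        omega)
    _ = S.card * (d * D) := mul_assoc _ _ _
    _ ≤ _ := Nat.mul_le_mul_left _ hlayer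

end Cfsg.Agent.MinSp
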