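import Cfsg.Agent.MinSp.Perp

/-!
Fixed points of transvections on the orbits of the radical.
-/

set_option autoImplicit false
set_option linter.unusedSectionVars false

namespace Cfsg.Agent.MinSp

open Cfsg.Agent.Forms Cfsg.Agent.Linear.Symp
open scoped Matrix Classical

variable {F : Type*} [Field F] [Fintype F] {m : ℕ}
  {X : Type*} [MulAction (Matrix.symplecticGroup (Fin m) F) X] [Fintype X]

local notation "G" => Matrix.symplecticGroup (Fin m) F
local notation "B" => sympBil m F

variable (X) in
/-- the number of fixed points -/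
noncomputable def fixN (g : Matrix.symplecticGroup (Fin m) F) : ℕ :=
  (Finset.univ.filter fun x : X => g • x = x).card

theorem fixN_conj (g t : G) : fixN X (g * t * g⁻¹) = fixN X t := by
  refine Finset.card_bij (fun x _ => g⁻¹ • x) (fun x hx => ?_) (fun x _ y _ h => ?_) fun y hy => ?_
  · simp only [Finset.mem_filter_univ, mul_smul] at hx ⊢
    exact (eq_inv_smul_iff.2 hx)
  · exact (smul_left_cancel_iff _).1 h
  · simp only [Finset.mem_filter_univ] at hy
    refine ⟨g • y, ?_, inv_smul_smul _ _⟩
    simp only [Finset.mem_filter_univ, mul_smul, inv_smul_smul, hy]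

theorem sum_fixN {ι : Type*} (s : Finset ι) (T : ι → G) :
    ∑ i ∈ s, fixN X (T i) = ∑ x : X, (s.filter fun i => T i • x = x).card := by
  simp only [fixN, Finset.card_filter]
  exact Finset.sum_comm

/-- comparing sums orbit by orbit -/
theorem sum_le_of_orb (b : Pair F m) (h g : X → ℕ)
    (hg : ∀ x, ∀ y ∈ orb b x, g y = g x)
    (hh : ∀ x, ∑ y ∈ orb b x, h y ≤ (orb b x).card * g x) :
    ∑ x, h x ≤ ∑ x, g x := by
  rw [← Finset.sum_fiberwise_of_maps_to (t := Finset.univ.image (orb b))
    (g := orb b) (fun x _ => Finset.mem_image_of_mem _ (Finset.mem_univ x)) h,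
    ← Finset.sum_fiberwise_of_maps_to (t := Finset.univ.image (orb b))
    (g := orb b) (fun x _ => Finset.mem_image_of_mem _ (Finset.mem_univ x)) g]
  refine Finset.sum_le_sum fun O hO => ?_
  obtain ⟨x, -, rfl⟩ := Finset.mem_image.1 hO
  have e : (Finset.univ.filter fun y => orb b y = orb b x) = orb b x := by
    ext y
    simp only [Finset.mem_filter_univ]
    exact ⟨fun h => h ▸ mem_orb_self y, orb_eq_of_mem⟩
  rw [e, Finset.sum_congr rfl (hg x), Finset.sum_const, smul_eq_mul]
  exact hh x

variable {b : Pair F m}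

theorem tau_mul_qel (v a : sub b) (c r : F) :
    tau (v : Fin m ⊕ Fin m → F) c * qel b a r =
      qel b ((tauLev v c).map a) r * tau (v : Fin m ⊕ Fin m → F) c := by
  have h := (tauLev v c).conj a r
  simp only [tauLev, one_smul, one_pow, one_mul] at h
  exact mul_inv_eq_iff_eq_mul.1 h

theorem tau_qel_zero (v : sub b) (c e : F) :
    tau (v : Fin m ⊕ Fin m → F) c * qel b 0 e = qel b 0 e * tau (v : Fin m ⊕ Fin m → F) c := by
  rw [tau_mul_qel, map_zero]

theorem tauLev_map_eq (v u : sub b) (c : F) :
    (tauLev v c).map u = u + (c * pair b v u) • v :=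
  Subtype.ext (coe_tauLev_map v u c)

theorem z_add (e f : F) : qel b 0 (e + f) = qel b 0 e * qel b 0 f := by rw [qel_mul]; simp

/-- a moved stabiliser element -/
theorem tau_stab {v : sub b} {c r : F} {a : sub b} {y : X}
    (hy : tau (v : Fin m ⊕ Fin m → F) c • y = qel b a r • y) {u : sub b} {s : F}
    (hu : qel b u s • y = y) :
    qel b ((c * pair b v u) • v)
      (2 * B (a : Fin m ⊕ Fin m → F) ((u : Fin m ⊕ Fin m → F) + (c * pair b v u) • (v : Fin m ⊕ Fin m → F))
        - c * pair b v u ^ 2) • y = y := by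
  have h1 : ((qel b a r)⁻¹ * qel b ((tauLev v c).map u) s * qel b a r) • y = y := by
    rw [mul_smul, mul_smul, ← hy, ← mul_smul (qel b _ s), ← tau_mul_qel, mul_smul, hu, hy,
      inv_smul_smul]
  rw [qel_conj] at h1
  have h2 : (qel b u s)⁻¹ • y = y := inv_smul_eq_iff.2 hu.symm
  rw [qel_inv] at h2
  have h3 : (qel b ((tauLev v c).map u) (s + 2 * B (a : Fin m ⊕ Fin m → F)
      ((tauLev v c).map u : Fin m ⊕ Fin m → F)) * qel b (-u) (-s)) • y = y := by
    rw [mul_smul, h2, h1]
  rw [qel_mul] at h3
  convert h3 using 3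
  · rw [tauLev_map_eq]; abel
  · rw [coe_tauLev_map]
    simp only [pair, AddMonoidHom.coe_mk, ZeroHom.coe_mk, Submodule.coe_neg, Submodule.coe_add,
      Submodule.coe_smul, map_add, map_smul, map_neg, LinearMap.neg_apply, bil_self, smul_eq_mul]
    ring

/-- the scalars moving `v` into the projection -/
noncomputable def uvs (x : X) (v : sub b) : Finset F :=
  Finset.univ.filter fun a => a • v ∈ U b x

theorem card_pair_fiber [Fintype (sub b)] {v : sub b} (hv : v ≠ 0) (T : Finset F) :
    Fintype.card F * (Finset.univ.filter fun a => pair b v a ∈ T).card =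
      T.card * Nat.card (sub b) := by
  obtain ⟨w, hw⟩ := exists_bil_sub hv
  have key : ∀ s, (Finset.univ.filter fun a => pair b v a = s).card =
      (Finset.univ.filter fun a => pair b v a = 0).card := by
    intro s
    have he : pair b v (s • w) = -s := by
      show B _ _ = _
      rw [bil_swap, Submodule.coe_smul, map_smul, hw]
      simp
    refine Finset.card_bij (fun a _ => a + s • w) (fun a ha => ?_) (fun a _ a' _ h => add_right_cancel h)
      fun a ha => ⟨a - s • w, ?_, sub_add_cancel _ _⟩
    · simp only [Finset.mem_filter_univ] at ha ⊢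
      rw [map_add, ha, he, add_neg_cancel]
    · simp only [Finset.mem_filter_univ] at ha ⊢
      rw [map_sub, ha, he, zero_sub, neg_neg]
  have hsum : ∀ T : Finset F, (Finset.univ.filter fun a => pair b v a ∈ T).card =
      T.card * (Finset.univ.filter fun a => pair b v a = 0).card := by
    intro T
    have hmaps : ∀ a ∈ (Finset.univ.filter fun a => pair b v a ∈ T), pair b v a ∈ T :=
      fun a ha => (Finset.mem_filter.1 ha).2
    rw [Finset.card_eq_sum_card_fiberwise hmaps, ← smul_eq_mul, ← Finset.sum_const]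
    refine Finset.sum_congr rfl fun s hs => ?_
    rw [← key s, Finset.filter_filter]
    congr 1
    ext a
    simp only [Finset.mem_filter_univ]
    exact ⟨fun h => h.2, fun h => ⟨h ▸ hs, h⟩⟩
  have hD := hsum Finset.univ
  simp only [Finset.mem_univ, Finset.filter_true, Finset.card_univ] at hD
  rw [hsum, Nat.card_eq_fintype_card, hD]
  ring

theorem card_fixed_orb {v : sub b} (hv : v ≠ 0) {c : F} (hc : c ≠ 0) (x : X) :
    Fintype.card F * ((orb b x).filter fun y =>
        ∃ e, (tau (v : Fin m ⊕ Fin m → F) c * qel b 0 e) • y = y).card ≤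
      (orb b x).card * (uvs x v).card := by
  let _ : Fintype (sub b) := Fintype.ofFinite _
  let _ : Fintype (Q b) := Fintype.ofFinite _
  set A := (orb b x).filter fun y =>
    ∃ e, (tau (v : Fin m ⊕ Fin m → F) c * qel b 0 e) • y = y with hA
  rcases A.eq_empty_or_nonempty with h | ⟨y0, hy0⟩
  · simp [h]
  obtain ⟨hy0o, e0, he0⟩ := Finset.mem_filter.1 hy0
  let C : Finset (Q b) := Finset.univ.filter fun g : Q b => (g : G) • y0 ∈ A
  have hC : C.card = A.card * Nat.card (MulAction.stabilizer (Q b) y0) := by
    have hmaps : ∀ g ∈ C, ((g : G) • y0) ∈ A := fun g hg => (Finset.mem_filter.1 hg).2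
    rw [Finset.card_eq_sum_card_fiberwise hmaps, ← smul_eq_mul, ← Finset.sum_const]
    refine Finset.sum_congr rfl fun y hy => ?_
    obtain ⟨w, s, hws⟩ := mem_orb.1 (orb_eq_of_mem hy0o ▸ (Finset.mem_filter.1 hy).1)
    rw [Nat.card_eq_fintype_card, ← Finset.card_univ]
    symm
    refine Finset.card_bij (fun g _ => (⟨qel b w s, mem_Q b w s⟩ : Q b) * (g : Q b))
      (fun g _ => ?_) (fun g _ g' _ h => Subtype.ext (mul_left_cancel h)) fun g hg => ?_
    · have hg : ((g : Q b) : G) • y0 = y0 := g.2
      simp only [C, Finset.mem_filter, Finset.mem_univ, true_and, Subgroup.coe_mul, mul_smul, hg,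
        hws, and_true]
      exact hy
    · have hg' : (g : G) • y0 = y := (Finset.mem_filter.1 hg).2
      refine ⟨⟨(⟨qel b w s, mem_Q b w s⟩ : Q b)⁻¹ * g, ?_⟩, Finset.mem_univ _,
        mul_inv_cancel_left _ _⟩
      show ((qel b w s)⁻¹ * (g : G)) • y0 = y0
      rw [mul_smul, hg', ← hws, inv_smul_smul]
  have hsub : C.card ≤
      (Finset.univ.filter fun a : sub b => pair b v a ∈ (uvs x v).image fun t => t / c).card *
        Fintype.card F := by
    rw [← Finset.card_univ (α := F), ← Finset.card_product]
    refine Finset.card_le_card_of_injOn (fun g => (qEquiv b).symm g) (fun g hg => ?_)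
      ((qEquiv b).symm.injective.injOn)
    obtain ⟨⟨a, r⟩, rfl⟩ := (qEquiv b).surjective g
    simp only [Finset.mem_coe, Finset.mem_product, Equiv.symm_apply_apply, Finset.mem_filter_univ,
      Finset.mem_univ, and_true]
    have hg' : qel b a r • y0 ∈ A := (Finset.mem_filter.1 hg).2
    obtain ⟨-, e, he⟩ := Finset.mem_filter.1 hg'
    have he' : tau (v : Fin m ⊕ Fin m → F) c • y0 = qel b 0 (-e0) • y0 := by
      conv_rhs => rw [← he0, tau_qel_zero, mul_smul, ← mul_smul, ← z_add]
      simp [qel_zero]
    have h1 : qel b a r • y0 =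
        (qel b ((tauLev v c).map a) r * qel b 0 (e - e0)) • y0 := by
      conv_lhs => rw [← he]
      rw [← mul_smul, tau_qel_zero, mul_assoc, tau_mul_qel, ← mul_assoc, mul_smul, he',
        ← mul_smul, qel_z_comm, mul_assoc, ← z_add, ← sub_eq_add_neg]
    have h2 : ((qel b a r)⁻¹ * (qel b ((tauLev v c).map a) r * qel b 0 (e - e0))) • y0 = y0 := by
      rw [mul_smul, ← h1, inv_smul_smul]
    rw [qel_inv, qel_mul, qel_mul] at h2
    have h3 : (c * pair b v a) • v ∈ U b x := by
      rw [← U_of_mem hy0o]
      exact ⟨_, by convert h2 using 3; rw [tauLev_map_eq]; abel⟩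
    exact Finset.mem_image.2 ⟨c * pair b v a, by simp [uvs, h3], by rw [mul_div_cancel_left₀ _ hc]⟩
  have h1 := Nat.mul_le_mul_left (Fintype.card F) hsub
  rw [← mul_assoc, card_pair_fiber hv, Finset.card_image_of_injective _ (fun s t h => by
    simpa [hc] using h), hC, card_stab, U_of_mem hy0o, Z0_of_mem hy0o, mul_assoc,
    ← card_orb_mul x] at h1
  have hpos : 0 < Nat.card (U b x) * Nat.card (Z0 b x) := Nat.mul_pos Nat.card_pos Nat.card_pos
  refine Nat.le_of_mul_le_mul_right ?_ hpos
  calc Fintype.card F * A.card * (Nat.card (U b x) * Nat.card (Z0 b x))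
      = Fintype.card F * (A.card * (Nat.card (U b x) * Nat.card (Z0 b x))) := mul_assoc _ _ _
    _ ≤ _ := h1
    _ = _ := by ring

theorem sum_uvs [Fintype (sub b)] (x : X) :
    ∑ v ∈ Finset.univ.filter (fun v : sub b => v ≠ 0), (uvs x v).card =
      (Nat.card (sub b) - 1) + (Fintype.card F - 1) * (Nat.card (U b x) - 1) := by
  have h : ∀ v : sub b, (uvs x v).card = 1 + (Finset.univ.filter fun a : F => a ≠ 0 ∧ a • v ∈ U b x).card := by
    intro v
    have e : uvs x v = insert 0 (Finset.univ.filter fun a : F => a ≠ 0 ∧ a • v ∈ U b x) := by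
      ext a
      by_cases ha : a = 0
      · simp [uvs, ha]
      · simp [uvs, ha]
    rw [e, Finset.card_insert_of_notMem (by simp), add_comm]
  rw [Finset.sum_congr rfl fun v _ => h v, Finset.sum_add_distrib, Finset.sum_const, smul_eq_mul,
    mul_one, Finset.filter_ne', Finset.card_erase_of_mem (Finset.mem_univ _), Finset.card_univ,
    ← Nat.card_eq_fintype_card]
  congr 1
  calc _ = ∑ v ∈ Finset.univ.erase (0 : sub b), ∑ a : F, (if a ≠ 0 ∧ a • v ∈ U b x then 1 else 0) := by
        simp only [Finset.card_filter]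
    _ = ∑ a ∈ Finset.univ.filter (fun a : F => a ≠ 0), (Nat.card (U b x) - 1) := by
        rw [Finset.sum_comm, Finset.sum_filter]
        refine Finset.sum_congr rfl fun a _ => ?_
        by_cases ha : a = 0
        · simp [ha]
        rw [if_pos ha, ← Finset.card_filter, Nat.card_eq_fintype_card, Fintype.card_subtype,
          ← Finset.card_erase_of_mem (show (0 : sub b) ∈ Finset.univ.filter (· ∈ U b x) by simp)]
        refine Finset.card_bij (fun v _ => a • v) (fun v hv => ?_)
          (fun v _ w _ h => smul_right_injective _ ha h) fun u hu => ?_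
        · simp only [Finset.mem_filter, Finset.mem_erase, Finset.mem_univ, and_true, true_and] at hv ⊢
          exact ⟨smul_ne_zero ha hv.1, hv.2.2⟩
        · simp only [Finset.mem_filter, Finset.mem_erase, Finset.mem_univ, true_and] at hu
          refine ⟨a⁻¹ • u, ?_, smul_inv_smul₀ ha u⟩
          simp only [Finset.mem_filter, Finset.mem_erase, Finset.mem_univ, and_true,
            smul_inv_smul₀ ha u]
          exact ⟨smul_ne_zero (inv_ne_zero ha) hu.1, ha, hu.2⟩
    _ = _ := by
        rw [Finset.sum_const, smul_eq_mul, Finset.filter_ne',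
          Finset.card_erase_of_mem (Finset.mem_univ _), Finset.card_univ]

end Cfsg.Agent.MinSp
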