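import Cfsg.Agent.MinSp.Layer

/-!
Fixed points of transvections inside an invariant orbit of the radical.
-/

set_option autoImplicit false
set_option linter.unusedSectionVars false

namespace Cfsg.Agent.MinSp

open Cfsg.Agent.Forms Cfsg.Agent.Linear.Symp
open scoped Matrix Classical

variable {F : Type*} [Field F] [Fintype F] {m : ℕ}
  {X : Type*} [MulAction (Matrix.symplecticGroup (Fin m) F) X] [Fintype X]

local notation "V" => (Fin m ⊕ Fin m → F)
local notation "G" => Matrix.symplecticGroup (Fin m) F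
local notation "B" => sympBil m F

variable {b : Pair F m}

theorem eq_of_app {g h : G} (hp : app g b.p = app h b.p) (hp' : app g b.p' = app h b.p')
    (hw : ∀ w : sub b, app g (w : V) = app h (w : V)) : g = h := by
  refine sp_ext fun x => ?_
  have e : x = B x b.p' • b.p - B x b.p • b.p' + ((split b x).2.2 : V) :=
    ((split b).symm_apply_apply x).symm
  rw [e, sub_eq_add_neg, ← neg_smul]
  simp only [app_add, app_smul, hp, hp', hw]

theorem eq_one_of_app {g : G} (hp : app g b.p = b.p) (hp' : app g b.p' = b.p')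
    (hw : ∀ w : sub b, app g (w : V) = (w : V)) : g = 1 :=
  eq_of_app (b := b) (by rw [hp, app_one]) (by rw [hp', app_one])
    fun w => by rw [hw, app_one]

/-- an element of prime order prime to the orbit length fixes a point -/
theorem exists_fix_in_orb {x : X} {g : G} {r : ℕ} (hr : r.Prime) (hg : g ^ r = 1)
    (hgo : ∀ y ∈ orb b x, g • y ∈ orb b x) (hnd : ¬ r ∣ (orb b x).card) :
    ∃ y ∈ orb b x, g • y = y := by
  have : Fact r.Prime := ⟨hr⟩
  have hgo' : ∀ y, MulAction.toPerm g y ∈ orb b x ↔ y ∈ orb b x := by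
    intro y
    refine ⟨fun h => ?_, hgo y⟩
    have hpow : ∀ k : ℕ, g ^ k • (g • y) ∈ orb b x := by
      intro k
      induction k with
      | zero => simpa using h
      | succ k ih => rw [pow_succ', mul_smul]; exact hgo _ ih
    have := hpow (r - 1)
    rwa [← mul_smul, ← pow_succ, Nat.sub_add_cancel hr.one_le, hg, one_smul] at this
  let σ : Equiv.Perm {y // y ∈ orb b x} := (MulAction.toPerm g).subtypePerm hgo'
  have hpow : ∀ (k : ℕ) (y : {y // y ∈ orb b x}), ((σ ^ k) y : X) = g ^ k • (y : X) := by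
    intro k
    induction k with
    | zero => simp
    | succ k ih =>
      intro y
      rw [pow_succ', pow_succ', mul_smul, ← ih]
      rfl
  obtain ⟨y, hy⟩ := Equiv.Perm.exists_fixed_point_of_prime (p := r) (n := 1)
    (by rwa [Fintype.card_coe]) (σ := σ) (by
      ext y
      rw [pow_one, hpow, hg, one_smul]
      rfl)
  exact ⟨y, y.2, congrArg Subtype.val hy⟩

theorem orb_dvd (x : X) : (orb b x).card ∣ Fintype.card F ^ (2 * (m - 1) + 1) := by
  rw [pow_succ, ← card_sub' b, ← card_orb_mul (b := b) x]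
  exact Dvd.intro _ rfl

theorem Lev.maps_orb (e : Lev b) {x : X} (h : e.g • x ∈ orb b x) :
    ∀ y ∈ orb b x, e.g • y ∈ orb b x := fun y hy => by
  rw [← orb_eq_of_mem h]; exact e.orb_smul hy

theorem lev_z_comm (e : Lev b) (he : e.l = 1) (s : F) :
    e.g * qel b 0 s = qel b 0 s * e.g := by
  have h := e.conj 0 s
  rw [he, one_pow, one_mul, map_zero, smul_zero] at h
  exact mul_inv_eq_iff_eq_mul.1 h

/-- the central element with its fixed points: odd characteristic -/
theorem center_odd (h2 : (2 : F) ≠ 0) {x : X}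
    (hO : ∀ e : Lev b, (∀ w, e.map w = -w) → e.l = 1 → e.g • x ∈ orb b x) :
    ∃ i : Lev b, i.l = 1 ∧ (∀ w, i.map w = -w) ∧ ∃ y ∈ orb b x, i.g • y = y ∧
      ∀ y' ∈ orb b x, i.g • y' = y' → ∃ s, y' = qel b 0 s • y := by
  obtain ⟨i, hil, hiw⟩ := exists_neg b
  have hi2 : i.g ^ 2 = 1 := by
    refine eq_one_of_app (b := b) ?_ ?_ fun w => ?_
    · rw [sq, app_mul, i.hp, hil, one_smul, i.hp, hil, one_smul]
    · rw [sq, app_mul, i.hp', hil, inv_one, one_smul, i.hp', hil, inv_one, one_smul]
    · rw [sq, app_mul]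
      exact congrArg Subtype.val (show i.map (i.map w) = w by rw [hiw, hiw, neg_neg])
  have hodd : ¬ 2 ∣ (orb b x).card := fun h => by
    have hq : Fintype.card F % 2 = 1 := FiniteField.odd_card_of_char_ne_two (F := F)
      fun h => h2 (by exact_mod_cast (ringChar.spec F 2).2 (h ▸ dvd_rfl))
    have := Nat.prime_two.dvd_of_dvd_pow (h.trans (orb_dvd (b := b) x))
    omega
  obtain ⟨y, hy, hiy⟩ := exists_fix_in_orb Nat.prime_two hi2 (i.maps_orb (hO i hiw hil)) hodd
  refine ⟨i, hil, hiw, y, hy, hiy, fun y' hy' hiy' => ?_⟩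
  obtain ⟨a, r, rfl⟩ := mem_orb.1 ((orb_eq_of_mem hy).symm ▸ hy' : y' ∈ orb b y)
  have hc := i.conj a r
  rw [hil, one_smul, one_pow, one_mul, hiw] at hc
  have h1 : qel b (-a) r • y = qel b a r • y := by
    rw [← hc, mul_smul, mul_smul, inv_smul_eq_iff.2 hiy.symm, hiy']
  have h3 : a + a ∈ U b y :=
    ⟨r + -r + B ((-(-a) : sub b) : V) (a : V), by
      have : ((qel b (-a) r)⁻¹ * qel b a r) • y = y := by rw [mul_smul, ← h1, inv_smul_smul]
      rw [qel_inv, qel_mul] at this
      convert this using 3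
      · abel
      · simp [bil_self]⟩
  have ha : a ∈ U b y := by
    obtain ⟨p, hp⟩ := CharP.exists F
    have hpp : p.Prime := CharP.char_is_prime F p
    obtain ⟨k, hk⟩ : ∃ k, p = 2 * k + 1 := by
      rcases hpp.eq_two_or_odd' with h | h
      · subst h; exact absurd (CharP.cast_eq_zero F 2) (by exact_mod_cast h2)
      · exact h
    have e : (k + 1) • (a + a) = a := by
      rw [← two_nsmul, ← mul_nsmul, show 2 * (k + 1) = p + 1 by omega, add_nsmul, one_nsmul,
        ← Nat.cast_smul_eq_nsmul F, CharP.cast_eq_zero, zero_smul, zero_add]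
    exact e ▸ AddSubgroup.nsmul_mem _ h3 _
  obtain ⟨t, ht⟩ := ha
  refine ⟨r - t, ?_⟩
  have e : qel b a r = qel b 0 (r - t) * qel b a t := by
    rw [qel_mul]; simp
  rw [e, mul_smul, ht]

/-- a transvection fixes the point: odd characteristic, scaling -/
theorem fixed_odd_scaled {x : X} {i : Lev b} (hil : i.l = 1) (hiw : ∀ w, i.map w = -w) {y : X}
    (hy : y ∈ orb b x) (hiy : i.g • y = y)
    (huniq : ∀ y' ∈ orb b x, i.g • y' = y' → ∃ s, y' = qel b 0 s • y)
    {v : sub b} {a : F} {h : Lev b} (hhl : h.l = 1) (hhv : h.map v = a • v)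
    (ha : a ^ 2 ≠ 1) (hho : h.g • x ∈ orb b x)
    (hto : ∀ c, (tauLev v c).g • x ∈ orb b x) (c : F) : tau (v : V) c • y = y := by
  have moved : ∀ e : Lev b, e.l = 1 → e.g • x ∈ orb b x → ∃ s, e.g • y = qel b 0 s • y := by
    intro e hel heo
    refine huniq _ (e.maps_orb heo y hy) ?_
    have hcomm : i.g * e.g = e.g * i.g := by
      refine eq_of_app (b := b) ?_ ?_ fun w => ?_
      · simp only [app_mul, i.hp, hil, e.hp, hel, one_smul]
      · simp only [app_mul, i.hp', hil, e.hp', hel, inv_one, one_smul]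
      · simp only [app_mul]
        exact congrArg Subtype.val
          (show i.map (e.map w) = e.map (i.map w) by rw [hiw, hiw, map_neg])
    rw [← mul_smul, hcomm, mul_smul, hiy]
  obtain ⟨c', rfl⟩ : ∃ c', c = c' * (a ^ 2 - 1) :=
    ⟨c / (a ^ 2 - 1), by rw [div_mul_cancel₀]; exact sub_ne_zero.2 ha⟩
  obtain ⟨s, hs⟩ := moved (tauLev v c') rfl (hto c')
  obtain ⟨f, hf⟩ := moved h hhl hho
  have hs' : tau (v : V) c' • y = qel b 0 s • y := hs
  have h1 : tau (v : V) (c' * a ^ 2) • y = qel b 0 s • y := by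
    have e : h.g * tau (v : V) c' * h.g⁻¹ = tau (v : V) (c' * a ^ 2) := by
      rw [h.conj_tau, hhv, Submodule.coe_smul, tau_smul]
    have hy' : h.g⁻¹ • y = qel b 0 (-f) • y := by
      rw [inv_smul_eq_iff, ← mul_smul, lev_z_comm h hhl, mul_smul, hf, ← mul_smul, ← z_add,
        neg_add_cancel, qel_zero, one_smul]
    rw [← e, mul_smul, mul_smul, hy', ← mul_smul (tau (v : V) c'), tau_qel_zero, mul_smul, hs',
      ← mul_smul (qel b 0 (-f)), ← z_add, ← mul_smul, lev_z_comm h hhl, mul_smul, hf, ← mul_smul, ← z_add]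
    congr 2
    ring
  have h3 : tau (v : V) (-c') • y = qel b 0 (-s) • y := by
    rw [← tau_inv, inv_smul_eq_iff, ← mul_smul, tau_qel_zero, mul_smul, hs', ← mul_smul, ← z_add,
      neg_add_cancel, qel_zero, one_smul]
  rw [show c' * (a ^ 2 - 1) = -c' + c' * a ^ 2 by ring, ← tau_mul, mul_smul, h1, ← mul_smul,
    tau_qel_zero, mul_smul, h3, ← mul_smul, ← z_add, add_neg_cancel, qel_zero, one_smul]

/-- a transvection fixes the point: odd characteristic, all vectors -/
theorem fixed_odd_all (h2 : (2 : F) ≠ 0) (hm : 3 ≤ m) {x : X} {i : Lev b} (hil : i.l = 1)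
    (hiw : ∀ w, i.map w = -w) {y : X} (hy : y ∈ orb b x) (hiy : i.g • y = y)
    (huniq : ∀ y' ∈ orb b x, i.g • y' = y' → ∃ s, y' = qel b 0 s • y)
    (hall : ∀ e : Lev b, e.l = 1 → e.g • x ∈ orb b x) (hZ : Z0 b x = ⊥ ∨ Z0 b x = ⊤)
    {v : sub b} (hv : v ≠ 0) (c : F) : tau (v : V) c • y = y := by
  rcases hZ with hZ | hZ
  swap
  · have hfix : ∀ s, qel b 0 s • y = y := fun s => by
      have : s ∈ Z0 b y := by rw [Z0_of_mem hy, hZ]; trivial
      exact this
    obtain ⟨s, hs⟩ := huniq _ ((tauLev v c).maps_orb (hall _ rfl) y hy) (by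
      show i.g • tau (v : V) c • y = tau (v : V) c • y
      have e : i.g * tau (v : V) c = tau (v : V) c * i.g := by
        have := i.conj_tau v c
        rw [hiw, Submodule.coe_neg, ← neg_one_smul F (v : V), tau_smul,
          show c * (-1) ^ 2 = c by ring] at this
        exact mul_inv_eq_iff_eq_mul.1 this
      rw [← mul_smul, e, mul_smul, hiy])
    exact hs.trans (hfix s)
  have moved : ∀ e : Lev b, e.l = 1 → ∃ s, e.g • y = qel b 0 s • y := by
    intro e hel
    refine huniq _ (e.maps_orb (hall e hel) y hy) ?_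
    have hcomm : i.g * e.g = e.g * i.g := by
      refine eq_of_app (b := b) ?_ ?_ fun w => ?_
      · simp only [app_mul, i.hp, hil, e.hp, hel, one_smul]
      · simp only [app_mul, i.hp', hil, e.hp', hel, inv_one, one_smul]
      · simp only [app_mul]
        exact congrArg Subtype.val
          (show i.map (e.map w) = e.map (i.map w) by rw [hiw, hiw, map_neg])
    rw [← mul_smul, hcomm, mul_smul, hiy]
  have indep : ∀ {w w' : sub b}, w ≠ 0 → w' ≠ 0 → ∀ {c s : F},
      tau (w : V) c • y = qel b 0 s • y → tau (w' : V) c • y = qel b 0 s • y := by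
    intro w w' hw hw' c s hs
    obtain ⟨e, hel, hev⟩ := exists_lev_map hw hw'
    obtain ⟨f, hf⟩ := moved e hel
    have hy' : e.g⁻¹ • y = qel b 0 (-f) • y := by
      rw [inv_smul_eq_iff, ← mul_smul, lev_z_comm e hel, mul_smul, hf, ← mul_smul, ← z_add,
        neg_add_cancel, qel_zero, one_smul]
    rw [← hev, ← e.conj_tau, mul_smul, mul_smul, hy', ← mul_smul (tau (w : V) c), tau_qel_zero,
      mul_smul, hs, ← mul_smul (qel b 0 (-f)), ← z_add, ← mul_smul, lev_z_comm e hel, mul_smul, hf, ← mul_smul,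
      ← z_add]
    congr 2
    ring
  obtain ⟨s, hs⟩ := moved (tauLev v c) rfl
  have hs' : tau (v : V) c • y = qel b 0 s • y := hs
  suffices s = 0 by rw [hs', this, qel_zero, one_smul]
  -- two orthogonal independent vectors
  obtain ⟨u, hu0, huv, hind⟩ : ∃ u : sub b, u ≠ 0 ∧ pair b v u = 0 ∧ ∀ t : F, u ≠ t • v := by
    let _ : Fintype (sub b) := Fintype.ofFinite _
    by_contra! hno
    have hK := card_pair_fiber hv ({0} : Finset F)
    rw [Finset.card_singleton, one_mul] at hK
    have hle : (Finset.univ.filter fun a => pair b v a ∈ ({0} : Finset F)).card ≤ Fintype.card F := by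
      rw [← Finset.card_univ (α := F)]
      refine le_trans (Finset.card_le_card (t := Finset.univ.image fun t : F => t • v)
        fun a ha => ?_) Finset.card_image_le
      simp only [Finset.mem_filter, Finset.mem_univ, true_and, Finset.mem_singleton] at ha
      rcases eq_or_ne a 0 with rfl | h
      · exact Finset.mem_image.2 ⟨0, Finset.mem_univ _, zero_smul _ _⟩
      · obtain ⟨t, ht⟩ := hno a h ha
        exact Finset.mem_image.2 ⟨t, Finset.mem_univ _, ht.symm⟩
    have h4 : Fintype.card F ^ 4 ≤ Nat.card (sub b) := by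
      rw [card_sub']; exact Nat.pow_le_pow_right Fintype.card_pos (by omega)
    have h5 : 2 ≤ Fintype.card F := Fintype.one_lt_card
    nlinarith [Nat.mul_le_mul_left (Fintype.card F) hle,
      Nat.mul_le_mul (Nat.mul_le_mul h5 h5) (le_refl (Fintype.card F * Fintype.card F))]
  have hne1 : u + v ≠ 0 := fun h => hind (-1) ((eq_neg_of_add_eq_zero_left h).trans (neg_one_smul F v).symm)
  have hne2 : u - v ≠ 0 := fun h => hind 1 (by rw [one_smul]; exact sub_eq_zero.1 h)
  have hB : B (v : V) (u : V) = 0 := by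
    rw [bil_swap, show B (u : V) (v : V) = pair b v u from rfl, huv, neg_zero]
  have hB' : B (u : V) (v : V) = 0 := huv
  have e : tau ((u + v : sub b) : V) c * tau ((u - v : sub b) : V) c =
      tau (u : V) (c + c) * tau (v : V) (c + c) := by
    refine sp_ext fun z => ?_
    simp only [app_mul, app_tau, Submodule.coe_add, Submodule.coe_sub, map_add, map_sub, map_smul,
      LinearMap.add_apply, LinearMap.sub_apply, LinearMap.smul_apply, bil_self, hB, hB',
      smul_eq_mul, mul_zero, add_zero, sub_zero]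
    module
  have step : ∀ (w : sub b) (c s : F) (r : F), tau (w : V) c • y = qel b 0 s • y →
      tau (w : V) c • qel b 0 r • y = qel b 0 (r + s) • y := by
    intro w c s r h
    rw [← mul_smul, tau_qel_zero, mul_smul, h, ← mul_smul, ← z_add]
  have hv2 : tau (v : V) (c + c) • y = qel b 0 (s + s) • y := by
    rw [← tau_mul, mul_smul, hs', step v c s s hs']
  have hL : (tau ((u + v : sub b) : V) c * tau ((u - v : sub b) : V) c) • y =
      qel b 0 (s + s) • y := by
    rw [mul_smul, indep hv hne2 hs', step _ c s s (indep hv hne1 hs')]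
  have hR : (tau (u : V) (c + c) * tau (v : V) (c + c)) • y =
      qel b 0 ((s + s) + (s + s)) • y := by
    rw [mul_smul, hv2, step _ _ _ _ (indep hv hu0 hv2)]
  rw [e, hR] at hL
  have h7 : s + s ∈ Z0 b y := by
    show qel b 0 (s + s) • y = y
    rwa [z_add (s + s) (s + s), mul_smul, smul_left_cancel_iff] at hL
  rw [Z0_of_mem hy, hZ, AddSubgroup.mem_bot, ← two_mul] at h7
  exact (mul_eq_zero.1 h7).resolve_left h2

/-- the torus element with its fixed point: characteristic two -/
theorem center_two (h2 : (2 : F) = 0) (hq : 3 ≤ Fintype.card F) {x : X}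
    (hZ : Z0 b x = ⊥ ∨ Z0 b x = ⊤) (hU : ∀ (a : F) u, u ∈ U b x → a • u ∈ U b x)
    (hO : ∀ e : Lev b, (∀ w, e.map w = w) → e.g • x ∈ orb b x) :
    ∃ y ∈ orb b x, ∀ e : Lev b, e.l = 1 → e.g • x ∈ orb b x → e.g • y = y := by
  let r := (Fintype.card F - 1).minFac
  have hr : r.Prime := Nat.minFac_prime (by omega)
  have : Fact r.Prime := ⟨hr⟩
  obtain ⟨l, hl⟩ := exists_prime_orderOf_dvd_card r (show r ∣ Fintype.card Fˣ by
    rw [Fintype.card_units]; exact Nat.minFac_dvd _)
  obtain ⟨T, hTl, hTw⟩ := exists_torus b (l := (l : F)) (Units.ne_zero l)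
  have hl1 : (l : F) ^ r = 1 := by
    rw [← Units.val_pow_eq_pow_val, ← hl, pow_orderOf_eq_one, Units.val_one]
  have hlne : (l : F) ≠ 1 := fun h => by
    rw [Units.val_eq_one] at h
    rw [h, orderOf_one] at hl
    exact hr.ne_one hl.symm
  have hl2 : (l : F) ^ 2 ≠ 1 := fun h => hlne (by
    have : ((l : F) - 1) * ((l : F) - 1) = 0 := by linear_combination h + (1 - (l : F)) * h2
    exact sub_eq_zero.1 (mul_self_eq_zero.1 this))
  have hTr : T.g ^ r = 1 := by
    have hk : ∀ k : ℕ, app (T.g ^ k) b.p = (l : F) ^ k • b.p ∧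
        app (T.g ^ k) b.p' = ((l : F) ^ k)⁻¹ • b.p' ∧
        ∀ w : sub b, app (T.g ^ k) (w : V) = (w : V) := by
      intro k
      induction k with
      | zero => simp [app_one]
      | succ k ih =>
        obtain ⟨i1, i2, i3⟩ := ih
        refine ⟨?_, ?_, fun w => ?_⟩
        · rw [pow_succ, app_mul, T.hp, hTl, app_smul, i1, smul_smul, ← pow_succ']
        · rw [pow_succ, app_mul, T.hp', hTl, app_smul, i2, smul_smul, ← mul_inv_rev, ← pow_succ]
        · rw [pow_succ, app_mul, show app T.g (w : V) = (T.map w : V) from rfl, hTw, i3]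
    obtain ⟨i1, i2, i3⟩ := hk r
    exact eq_one_of_app (b := b) (by rw [i1, hl1, one_smul])
      (by rw [i2, hl1, inv_one, one_smul]) i3
  have hnd : ¬ r ∣ (orb b x).card := fun h => by
    have h1 := hr.dvd_of_dvd_pow (h.trans (orb_dvd (b := b) x))
    have h3 : r ∣ Fintype.card F - 1 := Nat.minFac_dvd _
    have := Nat.dvd_sub h1 h3
    rw [Nat.sub_sub_self (by omega)] at this
    exact hr.not_dvd_one this
  obtain ⟨y, hy, hTy⟩ := exists_fix_in_orb hr hTr (T.maps_orb (hO T hTw)) hnd
  refine ⟨y, hy, fun e hel heo => ?_⟩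
  have hy' : e.g • y ∈ orb b y := by rw [orb_eq_of_mem hy]; exact e.maps_orb heo y hy
  obtain ⟨a, t, hat⟩ := mem_orb.1 hy'
  have hcomm : T.g * e.g = e.g * T.g := by
    refine eq_of_app (b := b) ?_ ?_ fun w => ?_
    · rw [app_mul, app_mul, e.hp, hel, one_smul, T.hp, app_smul, e.hp, hel, one_smul]
    · rw [app_mul, app_mul, e.hp', hel, inv_one, one_smul, T.hp', app_smul, e.hp', hel, inv_one,
        one_smul]
    · simp only [app_mul]
      exact congrArg Subtype.val (show T.map (e.map w) = e.map (T.map w) by rw [hTw, hTw])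
  have hfix : T.g • e.g • y = e.g • y := by rw [← mul_smul, hcomm, mul_smul, hTy]
  have hc := T.conj a t
  rw [hTl, hTw] at hc
  have h1 : qel b ((l : F) • a) ((l : F) ^ 2 * t) • y = qel b a t • y := by
    rw [← hc, mul_smul, mul_smul, inv_smul_eq_iff.2 hTy.symm, hat, hfix]
  have h3 : ((qel b a t)⁻¹ * qel b ((l : F) • a) ((l : F) ^ 2 * t)) • y = y := by
    rw [mul_smul, h1, inv_smul_smul]
  rw [qel_inv, qel_mul] at h3
  have ha : a ∈ U b y := by
    have hm' : -a + (l : F) • a ∈ U b x := by rw [← U_of_mem hy]; exact ⟨_, h3⟩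
    have := hU ((l : F) - 1)⁻¹ _ hm'
    rw [show -a + (l : F) • a = ((l : F) - 1) • a by module,
      inv_smul_smul₀ (sub_ne_zero.2 hlne)] at this
    rwa [U_of_mem hy]
  obtain ⟨t', ht'⟩ := ha
  have hz : e.g • y = qel b 0 (t - t') • y := by
    rw [← hat, show qel b a t = qel b 0 (t - t') * qel b a t' by rw [qel_mul]; simp, mul_smul, ht']
  rw [hz] at hfix ⊢
  have hc0 := T.conj 0 (t - t')
  rw [hTl, map_zero, smul_zero] at hc0
  have h5 : qel b 0 ((l : F) ^ 2 * (t - t')) • y = qel b 0 (t - t') • y := by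
    rw [← hc0, mul_smul, mul_smul, inv_smul_eq_iff.2 hTy.symm, hfix]
  have h6 : (l : F) ^ 2 * (t - t') - (t - t') ∈ Z0 b y := by
    show qel b 0 _ • y = y
    rw [sub_eq_neg_add, z_add, mul_smul, h5, ← mul_smul, ← z_add, neg_add_cancel, qel_zero,
      one_smul]
  rw [Z0_of_mem hy] at h6
  rcases hZ with hZ | hZ
  · rw [hZ, AddSubgroup.mem_bot, ← sub_one_mul] at h6
    rw [(mul_eq_zero.1 h6).resolve_left (sub_ne_zero.2 hl2), qel_zero, one_smul]
  · have : t - t' ∈ Z0 b y := by rw [Z0_of_mem hy, hZ]; trivial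
    exact this

end Cfsg.Agent.MinSp
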