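import Cfsg.Agent.MinSp.Select

/-!
Layers of orbits of the radical with a given central part.
-/

set_option autoImplicit false
set_option linter.unusedSectionVars false

namespace Cfsg.Agent.MinSp

open Cfsg.Agent.Forms Cfsg.Agent.Linear.Symp
open scoped Matrix Classical

variable {F : Type*} [Field F] [Fintype F] {m : ℕ}
  {X : Type*} [MulAction (Matrix.symplecticGroup (Fin m) F) X] [Fintype X]

local notation "V" => (Fin m ⊕ Fin m → F)
local notation "G" => Matrix.symplecticGroup (Fin m) F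
local notation "B" => sympBil m F

/-- a fixed nontrivial character -/
noncomputable def psi (F : Type*) [Field F] [Fintype F] : AddChar F ℂ :=
  (exists_char (F := F)).choose

theorem psi_ne : psi F ≠ 1 := (exists_char (F := F)).choose_spec

variable (b : Pair F m)

/-- the dual of the projection of the stabiliser -/
noncomputable def W (x : X) : AddSubgroup (sub b) := perp b (psi F) (U b x)

variable (X) in
/-- the points with a given central part -/
noncomputable def layer (Z : AddSubgroup F) : Finset X :=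
  Finset.univ.filter fun x => Z0 b x = Z ∧ U b x ≠ ⊤

variable (X) in
/-- the orbits in a layer -/
noncomputable def lorbs (Z : AddSubgroup F) : Finset (Finset X) := (layer X b Z).image (orb b)

/-- the dual attached to an orbit -/
noncomputable def Wset [Fintype (sub b)] (O : Finset X) : Finset (sub b) :=
  Finset.univ.filter fun w => ∃ y ∈ O, w ∈ W b y

/-- a scaled subgroup -/
def scale (μ : F) (Z : AddSubgroup F) : AddSubgroup F := Z.map (AddMonoidHom.mulLeft μ)

variable {b}

theorem mem_layer {Z : AddSubgroup F} {x : X} :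
    x ∈ layer X b Z ↔ Z0 b x = Z ∧ U b x ≠ ⊤ := by simp [layer]

theorem W_of_mem {x y : X} (h : y ∈ orb b x) : W b y = W b x := by
  unfold W; rw [U_of_mem h]

theorem layer_of_mem {Z : AddSubgroup F} {x y : X} (hx : x ∈ layer X b Z) (h : y ∈ orb b x) :
    y ∈ layer X b Z := by
  rw [mem_layer] at hx ⊢
  rwa [Z0_of_mem h, U_of_mem h]

theorem mem_Wset [Fintype (sub b)] {x : X} {w : sub b} : w ∈ Wset b (orb b x) ↔ w ∈ W b x := by
  simp only [Wset, Finset.mem_filter, Finset.mem_univ, true_and]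
  exact ⟨fun ⟨y, hy, hw⟩ => W_of_mem hy ▸ hw, fun hw => ⟨x, mem_orb_self x, hw⟩⟩

theorem card_Wset [Fintype (sub b)] (x : X) :
    (Wset b (orb b x)).card = Nat.card (W b x) := by
  rw [Nat.card_eq_fintype_card, Fintype.card_subtype]
  congr 1
  ext w
  simp [mem_Wset]

theorem one_lt_card_W {x : X} (h : U b x ≠ ⊤) : 1 < Nat.card (W b x) := by
  by_contra hle
  have h1 : Nat.card (W b x) = 1 := le_antisymm (by omega) Nat.card_pos
  have h2 := card_perp psi_ne (U b x)
  rw [show perp b (psi F) (U b x) = W b x from rfl, h1, mul_one] at h2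
  exact h ((U b x).eq_top_of_card_eq h2)

theorem exists_mem_W {x : X} (h : U b x ≠ ⊤) : ∃ w ∈ W b x, w ≠ 0 := by
  have := one_lt_card_W h
  rw [Nat.card_eq_fintype_card, Fintype.one_lt_card_iff] at this
  obtain ⟨u, w, huw⟩ := this
  rcases eq_or_ne u 0 with rfl | hu
  · exact ⟨w, w.2, fun e => huw (Subtype.ext e.symm)⟩
  · exact ⟨u, u.2, fun e => hu (Subtype.ext e)⟩

theorem scale_bot (μ : F) : scale μ (⊥ : AddSubgroup F) = ⊥ := AddSubgroup.map_bot _

theorem scale_top {μ : F} (h : μ ≠ 0) : scale μ (⊤ : AddSubgroup F) = ⊤ :=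
  AddSubgroup.map_top_of_surjective _ fun y => ⟨μ⁻¹ * y, mul_inv_cancel_left₀ h y⟩

theorem scale_one (Z : AddSubgroup F) : scale 1 Z = Z := by
  ext s; simp [scale]

theorem Lev.Z0_scale (e : Lev b) (x : X) : Z0 b (e.g • x) = scale (e.l ^ 2) (Z0 b x) := by
  ext s
  rw [scale, AddSubgroup.mem_map]
  constructor
  · intro h
    refine ⟨(e.l ^ 2)⁻¹ * s, ?_, mul_inv_cancel_left₀ (pow_ne_zero 2 e.hl) s⟩
    rwa [← e.mem_Z0, mul_inv_cancel_left₀ (pow_ne_zero 2 e.hl)]
  · rintro ⟨t, ht, rfl⟩
    exact (e.mem_Z0 x).2 ht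

theorem Lev.U_ne_top (e : Lev b) {x : X} (h : U b x ≠ ⊤) : U b (e.g • x) ≠ ⊤ := by
  intro ht
  refine h (eq_top_iff.2 fun w _ => ?_)
  have h1 := e.inv.mem_U (e.g • x) (w := e.map (e.l • w)) (by rw [ht]; trivial)
  rw [show e.inv.g • e.g • x = x from inv_smul_smul e.g x, e.map_inv_map,
    show e.inv.l = e.l⁻¹ from rfl, inv_smul_smul₀ e.hl] at h1
  exact h1

theorem Lev.mem_layer (e : Lev b) {Z : AddSubgroup F} {x : X} (h : x ∈ layer X b Z) :
    e.g • x ∈ layer X b (scale (e.l ^ 2) Z) := by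
  rw [MinSp.mem_layer] at h ⊢
  exact ⟨by rw [e.Z0_scale, h.1], e.U_ne_top h.2⟩

theorem Lev.mem_layer_one (e : Lev b) (he : e.l = 1) {Z : AddSubgroup F} {x : X}
    (h : x ∈ layer X b Z) : e.g • x ∈ layer X b Z := by
  have := e.mem_layer h
  rwa [he, one_pow, scale_one] at this

theorem Lev.mem_W (e : Lev b) {x : X} {w : sub b} (h : w ∈ W b x) :
    e.l⁻¹ • e.map w ∈ W b (e.g • x) := e.mem_perp (psi F) x h

theorem Lev.mem_W_one (e : Lev b) (he : e.l = 1) {x : X} {w : sub b} (h : w ∈ W b x) :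
    e.map w ∈ W b (e.g • x) := by
  have := e.mem_W h
  rwa [he, inv_one, one_smul] at this

theorem Lev.orb_image (e : Lev b) (x : X) :
    (orb b x).image (fun y => e.g • y) = orb b (e.g • x) := by
  ext z
  rw [Finset.mem_image]
  constructor
  · rintro ⟨y, hy, rfl⟩; exact e.orb_smul hy
  · intro hz
    refine ⟨e.inv.g • z, ?_, smul_inv_smul e.g z⟩
    have := e.inv.orb_smul hz
    rwa [show e.inv.g • e.g • x = x from inv_smul_smul e.g x] at this

theorem card_layer (Z : AddSubgroup F) [Fintype (sub b)] :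
    Nat.card Z * (layer X b Z).card = Fintype.card F * ∑ O ∈ lorbs X b Z, (Wset b O).card := by
  rw [Finset.card_eq_sum_card_image (orb b) (layer X b Z), Finset.mul_sum, Finset.mul_sum]
  refine Finset.sum_congr rfl fun O hO => ?_
  obtain ⟨x, hx, rfl⟩ := Finset.mem_image.1 hO
  have e : ((layer X b Z).filter fun y => orb b y = orb b x) = orb b x := by
    ext y
    simp only [Finset.mem_filter]
    exact ⟨fun h => h.2 ▸ mem_orb_self y, fun h => ⟨layer_of_mem hx h, orb_eq_of_mem h⟩⟩
  rw [e, card_Wset, mul_comm, ← (mem_layer.1 hx).1, W]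
  exact card_orb_perp psi_ne x

variable (b) (X) in
/-- the multiplicity of a vector -/
noncomputable def cnt [Fintype (sub b)] (Z : AddSubgroup F) (w : sub b) : ℕ :=
  ((lorbs X b Z).filter fun O => w ∈ Wset b O).card

theorem cnt_const [Fintype (sub b)] (Z : AddSubgroup F) {v v' : sub b} (hv : v ≠ 0) (hv' : v' ≠ 0) :
    cnt X b Z v ≤ cnt X b Z v' := by
  obtain ⟨e, he, hev⟩ := exists_lev_map hv hv'
  refine Finset.card_le_card_of_injOn (fun O => O.image fun y => e.g • y) (fun O hO => ?_)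
    (Finset.image_injective (MulAction.injective e.g)).injOn
  simp only [Finset.mem_coe, Finset.mem_filter, lorbs, Finset.mem_image] at hO ⊢
  obtain ⟨⟨x, hx, rfl⟩, hw⟩ := hO
  rw [e.orb_image]
  exact ⟨⟨e.g • x, e.mem_layer_one he hx, rfl⟩,
    mem_Wset.2 (hev ▸ e.mem_W_one he (mem_Wset.1 hw))⟩

/-- the fundamental count of a layer -/
theorem exists_cnt (hm : 2 ≤ m) [Fintype (sub b)] {Z : AddSubgroup F}
    (hne : (layer X b Z).Nonempty) :
    ∃ c, 1 ≤ c ∧ (∀ v : sub b, v ≠ 0 → cnt X b Z v = c) ∧ 1 ≤ (lorbs X b Z).card ∧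
      Nat.card Z * (layer X b Z).card =
        Fintype.card F * ((lorbs X b Z).card + (Nat.card (sub b) - 1) * c) := by
  obtain ⟨x, hx⟩ := hne
  obtain ⟨w, hw, hw0⟩ := exists_mem_W (mem_layer.1 hx).2
  have hconst : ∀ v : sub b, v ≠ 0 → cnt X b Z v = cnt X b Z w := fun v hv =>
    le_antisymm (cnt_const Z hv hw0) (cnt_const Z hw0 hv)
  refine ⟨cnt X b Z w, Finset.card_pos.2 ⟨orb b x, Finset.mem_filter.2
    ⟨Finset.mem_image_of_mem _ hx, mem_Wset.2 hw⟩⟩, hconst,
    Finset.card_pos.2 ⟨_, Finset.mem_image_of_mem _ hx⟩, ?_⟩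
  rw [card_layer]
  congr 1
  calc ∑ O ∈ lorbs X b Z, (Wset b O).card = ∑ v : sub b, cnt X b Z v := by
        simp only [cnt, Finset.card_filter]
        rw [Finset.sum_comm]
        refine Finset.sum_congr rfl fun O _ => ?_
        rw [← Finset.card_filter]
        congr 1
        ext v
        simp
    _ = _ := by
        rw [← Finset.add_sum_erase _ _ (Finset.mem_univ (0 : sub b)),
          Finset.sum_congr rfl fun v hv => hconst v (Finset.ne_of_mem_erase hv), Finset.sum_const,
          smul_eq_mul, Finset.card_erase_of_mem (Finset.mem_univ _), Finset.card_univ,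
          Nat.card_eq_fintype_card]
        congr 1
        rw [cnt, Finset.filter_true_of_mem fun O hO => ?_]
        obtain ⟨y, -, rfl⟩ := Finset.mem_image.1 hO
        exact mem_Wset.2 (zero_mem _)

variable (b) (X) in
/-- every nonzero vector lies in only one dual -/
def Simple (Z : AddSubgroup F) : Prop :=
  ∀ x ∈ layer X b Z, ∀ y ∈ layer X b Z, ∀ v : sub b, v ≠ 0 → v ∈ W b x → v ∈ W b y →
    orb b x = orb b y

theorem simple_of_cnt [Fintype (sub b)] {Z : AddSubgroup F}
    (h : ∀ v : sub b, v ≠ 0 → cnt X b Z v = 1) : Simple X b Z := by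
  intro x hx y hy v hv hvx hvy
  refine Finset.card_le_one.1 (h v hv).le _ ?_ _ ?_
  · exact Finset.mem_filter.2 ⟨Finset.mem_image_of_mem _ hx, mem_Wset.2 hvx⟩
  · exact Finset.mem_filter.2 ⟨Finset.mem_image_of_mem _ hy, mem_Wset.2 hvy⟩

/-- transport of a dual -/
theorem Simple.move {Z : AddSubgroup F} (hs : Simple X b Z) (e : Lev b) (he : e.l = 1) {x y : X}
    (hx : x ∈ layer X b Z) (hy : y ∈ layer X b Z) {v : sub b} (hv : v ≠ 0) (hvx : v ∈ W b x)
    (h : e.map v ∈ W b y) {u : sub b} (hu : u ∈ W b x) : e.map u ∈ W b y := by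
  have hne : e.map v ≠ 0 := fun h0 => hv (by rw [← e.map_inv_map v, h0, map_zero])
  have ho := hs _ (e.mem_layer_one he hx) _ hy _ hne (e.mem_W_one he hvx) h
  rw [W_of_mem (ho ▸ mem_orb_self y : y ∈ orb b (e.g • x))]
  exact e.mem_W_one he hu

theorem Simple.mem_orb_lev {Z : AddSubgroup F} (hs : Simple X b Z) (e : Lev b)
    (hZ : scale (e.l ^ 2) Z = Z) {x : X} (hx : x ∈ layer X b Z) {v : sub b} (hv : v ≠ 0)
    (hvx : v ∈ W b x) (h : e.l⁻¹ • e.map v ∈ W b x) : e.g • x ∈ orb b x := by
  have hne : e.l⁻¹ • e.map v ≠ 0 := smul_ne_zero (inv_ne_zero e.hl) fun h0 => hv (by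
    rw [← e.map_inv_map v, h0, map_zero])
  have h1 := e.mem_layer hx
  rw [hZ] at h1
  have := hs _ h1 _ hx _ hne (e.mem_W hvx) h
  rw [← this]
  exact mem_orb_self _

/-- a dual with two independent vectors is everything -/
theorem Simple.eq_top {Z : AddSubgroup F} (hs : Simple X b Z) {x : X} (hx : x ∈ layer X b Z)
    {w v : sub b} (hw : w ∈ W b x) (hv : v ∈ W b x) (hv0 : v ≠ 0) (hind : ∀ t : F, w ≠ t • v) :
    W b x = ⊤ := by
  -- a transvection fixing `v'` moves members of the dual inside it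
  have step : ∀ {v' w' : sub b}, v' ∈ W b x → v' ≠ 0 → w' ∈ W b x → ∀ u : sub b,
      pair b u v' = 0 → pair b u w' ≠ 0 → ∀ t : F, t • u ∈ W b x := by
    intro v' w' hv' hv'0 hw' u h1 h2 t
    have e1 : (tauLev u (t / pair b u w')).map v' = v' := by simp [tauLev_map_eq, h1]
    have h3 := hs.move (tauLev u (t / pair b u w')) rfl hx hx hv'0 hv' (by rwa [e1]) hw'
    rw [tauLev_map_eq, div_mul_cancel₀ _ h2] at h3
    simpa using sub_mem h3 hw'
  have anti : ∀ a c : sub b, pair b a c = -pair b c a := fun a c => bil_swap _ _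
  have self : ∀ a : sub b, pair b a a = 0 := fun a => bil_self _
  have hw0 : w ≠ 0 := fun h => hind 0 (by rw [h, zero_smul])
  have main : ∀ {w v : sub b}, w ∈ W b x → v ∈ W b x → pair b v w ≠ 0 → W b x = ⊤ := by
    intro w v hw hv hne
    have hne' : pair b w v ≠ 0 := by rw [anti]; exact neg_ne_zero.2 hne
    have hv0 : v ≠ 0 := fun h => hne' (by rw [h, map_zero])
    have hw0 : w ≠ 0 := fun h => hne (by rw [h, map_zero])
    have hFv : ∀ t : F, t • v ∈ W b x := step hv hv0 hw v (self v) hne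
    have hFw : ∀ t : F, t • w ∈ W b x := step hw hw0 hv w (self w) hne'
    refine eq_top_iff.2 fun y _ => ?_
    set α := pair b w y / pair b w v with hα
    set β := pair b v y / pair b v w with hβ
    set u0 := y - α • v - β • w with hu0
    have lin : ∀ a c : sub b, ∀ t : F, pair b a (t • c) = t * pair b a c := fun a c t => by
      simp [pair]
    have p1 : pair b v u0 = 0 := by
      simp only [hu0, map_sub, lin, self, hβ, div_mul_cancel₀ _ hne]; ring
    have p2 : pair b w u0 = 0 := by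
      simp only [hu0, map_sub, lin, self, hα, div_mul_cancel₀ _ hne']; ring
    have q1 : pair b (u0 + v) v = 0 := by
      rw [anti, map_add, p1, self, add_zero, neg_zero]
    have q2 : pair b (u0 + v) w ≠ 0 := by
      rw [anti, map_add, p2, zero_add, neg_ne_zero]; exact hne'
    have hu : u0 ∈ W b x := by
      have := sub_mem (step hv hv0 hw (u0 + v) q1 q2 1) hv
      rwa [one_smul, add_sub_cancel_right] at this
    have := add_mem (add_mem hu (hFv α)) (hFw β)
    rwa [hu0, show y - α • v - β • w + α • v + β • w = y by abel] at this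
  by_cases hvw : pair b v w = 0
  · obtain ⟨u1, hu1⟩ := exists_bil_sub hw0
    have lin : ∀ a c : sub b, ∀ t : F, pair b a (t • c) = t * pair b a c := fun a c t => by
      simp [pair]
    have lin' : ∀ a c : sub b, ∀ t : F, pair b (t • a) c = t * pair b a c := fun a c t => by
      simp [pair]
    have h1 : pair b u1 w = 1 := hu1
    set a := pair b u1 v with ha
    have hv' : v - a • w ≠ 0 := by
      intro e
      rw [sub_eq_zero] at e
      rcases eq_or_ne a 0 with h | h
      · exact hv0 (by rw [e, h, zero_smul])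
      · exact hind a⁻¹ (by rw [e, inv_smul_smul₀ h])
    obtain ⟨u2, hu2⟩ := exists_bil_sub hv'
    have h2 : pair b u2 v - a * pair b u2 w = 1 := by
      have e : pair b u2 (v - a • w) = 1 := hu2
      rwa [map_sub, lin] at e
    set u := u1 - a • (u2 - pair b u2 w • u1) with hu
    have pr : ∀ z, pair b u z = pair b u1 z - a * (pair b u2 z - pair b u2 w * pair b u1 z) := by
      intro z; simp [hu, pair]
    have q1 : pair b u v = 0 := by
      rw [pr, ← ha]
      linear_combination (-a) * h2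
    have q2 : pair b u w ≠ 0 := by
      rw [pr, h1]; simp
    have := step hv hv0 hw u q1 q2 1
    rw [one_smul] at this
    exact main hw this q2
  · exact main hw hv hvw

theorem U_of_W_top {x : X} (h : W b x = ⊤) : U b x = ⊥ := by
  have h2 := card_perp psi_ne (U b x)
  rw [show perp b (psi F) (U b x) = W b x from rfl, h, AddSubgroup.card_top] at h2
  exact (U b x).eq_bot_of_card_eq (Nat.eq_of_mul_eq_mul_right Nat.card_pos
    (h2.trans (one_mul _).symm))

theorem U_of_W_line [Fintype (sub b)] {x : X} {v : sub b} (hv : v ≠ 0)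
    (h : ∀ w, w ∈ W b x ↔ ∃ a : F, w = a • v) (u : sub b) : u ∈ U b x ↔ pair b v u = 0 := by
  have hsub : ∀ u ∈ U b x, pair b v u = 0 := fun u hu => eq_zero_of_psi psi_ne fun t => by
    have := (h (t • v)).2 ⟨t, rfl⟩ u hu
    rwa [show pair b (t • v) u = pair b v u * t by simp [pair, mul_comm]] at this
  refine ⟨hsub u, fun hu => ?_⟩
  have hcard : Nat.card (W b x) = Fintype.card F := by
    rw [← Nat.card_eq_fintype_card]
    exact (Nat.card_congr (Equiv.ofBijective (fun a : F => (⟨a • v, (h _).2 ⟨a, rfl⟩⟩ : W b x))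
      ⟨fun a c e => smul_left_injective F hv (congrArg Subtype.val e),
      fun w => by obtain ⟨a, ha⟩ := (h w).1 w.2; exact ⟨a, Subtype.ext ha.symm⟩⟩)).symm
  have e : Finset.univ.filter (fun u => u ∈ U b x) =
      Finset.univ.filter (fun u => pair b v u ∈ ({0} : Finset F)) := by
    refine Finset.eq_of_subset_of_card_le (fun u hu => ?_) ?_
    · simp only [Finset.mem_filter, Finset.mem_univ, true_and, Finset.mem_singleton] at hu ⊢
      exact hsub u hu
    · refine Nat.le_of_mul_le_mul_left ?_ (Fintype.card_pos (α := F))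
      rw [card_pair_fiber hv, ← card_perp psi_ne (U b x), Finset.card_singleton, one_mul,
        show perp b (psi F) (U b x) = W b x from rfl, hcard, Nat.card_eq_fintype_card,
        Fintype.card_subtype, mul_comm]
  have := (Finset.ext_iff.1 e u).2 (by simp [hu])
  simpa using this

/-- the shapes of a simple layer -/
theorem Simple.cases (hm : 2 ≤ m) [Fintype (sub b)] {Z : AddSubgroup F} (hs : Simple X b Z)
    (hne : (layer X b Z).Nonempty)
    (hc : Nat.card Z * (layer X b Z).card =
      Fintype.card F * ((lorbs X b Z).card + (Nat.card (sub b) - 1))) :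
    (∃ x ∈ layer X b Z, W b x = ⊤ ∧ layer X b Z = orb b x) ∨
    ((∀ x ∈ layer X b Z, ∃ v : sub b, v ≠ 0 ∧ ∀ w, w ∈ W b x ↔ ∃ a : F, w = a • v) ∧
      (lorbs X b Z).card * (Fintype.card F - 1) = Nat.card (sub b) - 1) ∨
    2 * (Nat.card (sub b) - 1) ≤ (lorbs X b Z).card * (Fintype.card F - 1) := by
  by_cases htop : ∃ x ∈ layer X b Z, W b x = ⊤
  · obtain ⟨x, hx, hW⟩ := htop
    refine Or.inl ⟨x, hx, hW, Finset.ext fun y => ⟨fun hy => ?_, layer_of_mem hx⟩⟩
    obtain ⟨w, hw, hw0⟩ := exists_mem_W (mem_layer.1 hy).2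
    rw [hs _ hx _ hy w hw0 (by rw [hW]; trivial) hw]
    exact mem_orb_self y
  right
  push Not at htop
  have hline : ∀ x ∈ layer X b Z, ∃ v : sub b, v ≠ 0 ∧ v ∈ W b x ∧
      ∀ w ∈ W b x, ∃ a : F, w = a • v := by
    intro x hx
    obtain ⟨v, hv, hv0⟩ := exists_mem_W (mem_layer.1 hx).2
    refine ⟨v, hv0, hv, fun w hw => ?_⟩
    by_contra! hind
    exact htop x hx (hs.eq_top hx hw hv hv0 hind)
  set q := Fintype.card F with hqd
  set D := Nat.card (sub b) with hD
  have hsum : ∑ O ∈ lorbs X b Z, ((Wset b O).card - 1) = D - 1 := by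
    have h1 := card_layer (b := b) (X := X) Z
    rw [hc] at h1
    have h2 : ∑ O ∈ lorbs X b Z, (Wset b O).card = (lorbs X b Z).card + (D - 1) :=
      (Nat.eq_of_mul_eq_mul_left (Fintype.card_pos (α := F)) h1).symm
    have h3 : ∑ O ∈ lorbs X b Z, (Wset b O).card =
        ∑ O ∈ lorbs X b Z, ((Wset b O).card - 1) + (lorbs X b Z).card := by
      rw [Finset.card_eq_sum_ones (lorbs X b Z), ← Finset.sum_add_distrib]
      refine Finset.sum_congr rfl fun O hO => ?_
      obtain ⟨y, hy, rfl⟩ := Finset.mem_image.1 hO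
      have := one_lt_card_W (mem_layer.1 hy).2
      rw [card_Wset]
      omega
    omega
  by_cases hfull : ∀ x ∈ layer X b Z, ∀ v ∈ W b x, ∀ a : F, a • v ∈ W b x
  · left
    have hl : ∀ x ∈ layer X b Z, ∃ v : sub b, v ≠ 0 ∧ ∀ w, w ∈ W b x ↔ ∃ a : F, w = a • v := by
      intro x hx
      obtain ⟨v, hv0, hv, hall⟩ := hline x hx
      exact ⟨v, hv0, fun w => ⟨hall w, fun ⟨a, ha⟩ => ha ▸ hfull x hx v hv a⟩⟩
    refine ⟨hl, ?_⟩
    rw [← hsum, ← smul_eq_mul, ← Finset.sum_const]
    refine Finset.sum_congr rfl fun O hO => ?_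
    obtain ⟨x, hx, rfl⟩ := Finset.mem_image.1 hO
    obtain ⟨v, hv0, hiff⟩ := hl x hx
    rw [card_Wset, hqd, ← Nat.card_eq_fintype_card]
    congr 1
    exact Nat.card_congr (Equiv.ofBijective (fun a : F => (⟨a • v, (hiff _).2 ⟨a, rfl⟩⟩ : W b x))
      ⟨fun a c e => smul_left_injective F hv0 (congrArg Subtype.val e),
      fun w => by obtain ⟨a, ha⟩ := (hiff w).1 w.2; exact ⟨a, Subtype.ext ha.symm⟩⟩)
  · right
    push Not at hfull
    obtain ⟨x0, hx0, v0, hv0, a0, ha0⟩ := hfull
    have hv00 : v0 ≠ 0 := fun h => ha0 (by rw [h, smul_zero]; exact zero_mem _)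
    rw [← hsum, Finset.mul_sum, ← smul_eq_mul, ← Finset.sum_const]
    refine Finset.sum_le_sum fun O hO => ?_
    obtain ⟨x, hx, rfl⟩ := Finset.mem_image.1 hO
    obtain ⟨v, hvne, hv, hall⟩ := hline x hx
    let K : AddSubgroup F := (W b x).comap ((LinearMap.toSpanSingleton F (sub b) v).toAddMonoidHom)
    have hK : Nat.card K = Nat.card (W b x) :=
      Nat.card_congr (Equiv.ofBijective (fun a : K => (⟨(a : F) • v, a.2⟩ : W b x))
        ⟨fun a c e => Subtype.ext (smul_left_injective F hvne (congrArg Subtype.val e)),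
        fun w => by
          obtain ⟨a, ha⟩ := hall w w.2
          exact ⟨⟨a, by show a • v ∈ W b x; exact ha ▸ w.2⟩, Subtype.ext ha.symm⟩⟩)
    have hKne : K ≠ ⊤ := by
      intro hK'
      obtain ⟨e, he, hev⟩ := exists_lev_map hvne hv00
      have h1 : a0 • v ∈ W b x := (show a0 ∈ K by rw [hK']; trivial)
      have h2 := hs.move e he hx hx0 hvne hv (hev ▸ hv0) h1
      rw [map_smul, hev] at h2
      exact ha0 h2
    obtain ⟨k, hk⟩ : Nat.card K ∣ q := by
      rw [hqd, ← Nat.card_eq_fintype_card]; exact K.card_addSubgroup_dvd_card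
    have hk1 : k ≠ 1 := fun h => hKne (K.eq_top_of_card_eq (by
      rw [Nat.card_eq_fintype_card (α := F), ← hqd, hk, h, mul_one]))
    have hk0 : k ≠ 0 := fun h => by
      have := Fintype.card_pos (α := F)
      rw [← hqd, hk, h, mul_zero] at this; exact lt_irrefl 0 this
    rw [card_Wset, ← hK]
    have : Nat.card K * 2 ≤ q := hk ▸ Nat.mul_le_mul_left _ (by omega)
    omega

end Cfsg.Agent.MinSp
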