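import Cfsg.Agent.MinSp.Setup

/-!
Duality on the orthogonal space and orbit data of the radical.
-/

set_option autoImplicit false

namespace Cfsg.Agent.MinSp

open Cfsg.Agent.Forms Cfsg.Agent.Linear.Symp
open scoped Matrix

variable {F : Type*} [Field F] {m : ℕ}

local notation "G" => Matrix.symplecticGroup (Fin m) F
local notation "B" => sympBil m F

variable (b : Pair F m)

/-- pairing with a fixed vector of the orthogonal space -/
def pair (w : sub b) : sub b →+ F where
  toFun u := B (u : Fin m ⊕ Fin m → F) (w : Fin m ⊕ Fin m → F)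
  map_zero' := by simp
  map_add' u v := by simp

/-- the orthogonal of a subgroup with respect to a character -/
def perp (ψ : AddChar F ℂ) (U : AddSubgroup (sub b)) : AddSubgroup (sub b) where
  carrier := {w | ∀ u ∈ U, ψ (pair b w u) = 1}
  zero_mem' u _ := by simp [pair]
  add_mem' {x y} hx hy u hu := by
    have e : pair b (x + y) u = pair b x u + pair b y u := by simp [pair]
    rw [e, AddChar.map_add_eq_mul, hx u hu, hy u hu, mul_one]
  neg_mem' {x} hx u hu := by
    have e : pair b (-x) u = -pair b x u := by simp [pair]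
    rw [e, AddChar.map_neg_eq_inv, hx u hu, inv_one]

variable {b}

theorem eq_zero_of_psi {ψ : AddChar F ℂ} (hψ : ψ ≠ 1) {a : F} (h : ∀ x : F, ψ (a * x) = 1) :
    a = 0 := by
  by_contra ha
  exact hψ (AddChar.ext _ _ fun y => by
    have := h (a⁻¹ * y)
    rwa [← mul_assoc, mul_inv_cancel₀ ha, one_mul] at this)

variable [Fintype F]

theorem exists_char : ∃ ψ : AddChar F ℂ, ψ ≠ 1 := by
  obtain ⟨ψ, hψ⟩ := (AddChar.exists_apply_ne_zero (α := F) (a := 1)).2 one_ne_zero
  exact ⟨ψ, fun h => hψ (by simp [h])⟩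

theorem card_perp {ψ : AddChar F ℂ} (hψ : ψ ≠ 1) (U : AddSubgroup (sub b)) :
    Nat.card U * Nat.card (perp b ψ U) = Nat.card (sub b) := by
  classical
  let _ : Fintype (sub b) := Fintype.ofFinite _
  let Φ : sub b → AddChar (sub b) ℂ := fun w => ψ.compAddMonoidHom (pair b w)
  have hinj : Function.Injective Φ := by
    intro w w' h
    by_contra hne
    obtain ⟨u, hu⟩ := exists_bil_sub (sub_ne_zero.2 hne)
    refine one_ne_zero (α := F) (eq_zero_of_psi hψ fun x => ?_)
    have hx : ψ (pair b w (-(x • u))) = ψ (pair b w' (-(x • u))) :=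
      congrArg (fun χ : AddChar (sub b) ℂ => χ (-(x • u))) h
    have e : 1 * x = pair b w (-(x • u)) - pair b w' (-(x • u)) := by
      have h3 := hu
      rw [bil_swap, Submodule.coe_sub] at h3
      simp only [map_sub] at h3
      simp only [pair, AddMonoidHom.coe_mk, ZeroHom.coe_mk, Submodule.coe_neg, Submodule.coe_smul,
        map_neg, map_smul, LinearMap.smul_apply, smul_eq_mul]
      linear_combination (-x) * h3
    rw [e, AddChar.map_sub_eq_div, hx, div_self]
    intro h0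
    have h4 := (AddChar.map_add_eq_mul ψ (pair b w' (-(x • u))) (-pair b w' (-(x • u)))).symm
    rw [add_neg_cancel, AddChar.map_zero_eq_one, h0, zero_mul] at h4
    exact zero_ne_one h4
  have hbij : Function.Bijective Φ :=
    (Fintype.bijective_iff_injective_and_card Φ).2 ⟨hinj, AddChar.card_eq.symm⟩
  let _ : Fintype (sub b ⧸ U) := Fintype.ofFinite _
  have hU : Nat.card (perp b ψ U) = Nat.card (sub b ⧸ U) := by
    rw [Nat.card_eq_fintype_card (α := sub b ⧸ U), ← AddChar.card_eq (α := sub b ⧸ U),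
      ← Nat.card_eq_fintype_card]
    let Ψ : AddChar (sub b ⧸ U) ℂ → perp b ψ U := fun χ =>
      ⟨(Equiv.ofBijective Φ hbij).symm (χ.compAddMonoidHom (QuotientAddGroup.mk' U)), fun u hu => by
        have := congrArg (fun η : AddChar (sub b) ℂ => η u) ((Equiv.ofBijective Φ hbij).apply_symm_apply
          (χ.compAddMonoidHom (QuotientAddGroup.mk' U)))
        refine this.trans ?_
        simp [(QuotientAddGroup.eq_zero_iff u).2 hu]⟩
    refine (Nat.card_congr (Equiv.ofBijective Ψ ⟨fun χ χ' h => ?_, fun w => ?_⟩)).symm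
    · have h0 : ((Ψ χ : perp b ψ U) : sub b) = Ψ χ' := congrArg Subtype.val h
      have h' := (Equiv.ofBijective Φ hbij).symm.injective h0
      refine AddChar.ext _ _ fun y => ?_
      obtain ⟨u, rfl⟩ := QuotientAddGroup.mk'_surjective U y
      exact congrArg (fun η : AddChar (sub b) ℂ => η u) h'
    · refine ⟨AddChar.toAddMonoidHomEquiv.symm (QuotientAddGroup.lift U
        (AddChar.toAddMonoidHomEquiv (Φ w)) fun u hu => ?_), Subtype.ext ?_⟩
      · exact congrArg Additive.ofMul (w.2 u hu)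
      · apply (Equiv.ofBijective Φ hbij).injective
        show (Equiv.ofBijective Φ hbij) ((Equiv.ofBijective Φ hbij).symm _) = _
        rw [Equiv.apply_symm_apply]
        exact AddChar.ext _ _ fun u => rfl
  rw [hU, mul_comm]
  exact (AddSubgroup.card_eq_card_quotient_mul_card_addSubgroup U).symm

section Orbit

variable (b) {X : Type*} [MulAction (Matrix.symplecticGroup (Fin m) F) X]

/-- the projection of the stabiliser -/
def U (x : X) : AddSubgroup (sub b) where
  carrier := {w | ∃ s, qel b w s • x = x}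
  zero_mem' := ⟨0, by rw [qel_zero, one_smul]⟩
  add_mem' := by
    rintro u v ⟨s, hs⟩ ⟨t, ht⟩
    exact ⟨_, by rw [← qel_mul, mul_smul, ht, hs]⟩
  neg_mem' := by
    rintro u ⟨s, hs⟩
    refine ⟨-s, ?_⟩
    rw [← qel_inv, inv_smul_eq_iff, hs]

/-- the central part of the stabiliser -/
def Z0 (x : X) : AddSubgroup F where
  carrier := {s | qel b 0 s • x = x}
  zero_mem' := by simp [qel_zero]
  add_mem' := by
    intro s t hs ht
    have h : qel b 0 (s + t) = qel b 0 s * qel b 0 t := by rw [qel_mul]; simp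
    change qel b 0 (s + t) • x = x
    rw [h, mul_smul, show qel b 0 t • x = x from ht, show qel b 0 s • x = x from hs]
  neg_mem' := by
    intro s hs
    change qel b 0 (-s) • x = x
    have h : (qel b 0 s)⁻¹ = qel b 0 (-s) := by rw [qel_inv]; simp
    rw [← h, inv_smul_eq_iff, show qel b 0 s • x = x from hs]

variable {b}

theorem Z0_smul {g : G} (hg : g ∈ Q b) (x : X) : Z0 b (g • x) = Z0 b x := by
  obtain ⟨⟨a, r⟩, rfl⟩ := hg
  ext s
  show qel b 0 s • qel b a r • x = qel b a r • x ↔ qel b 0 s • x = x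
  rw [← mul_smul, qel_z_comm, mul_smul, smul_left_cancel_iff]

theorem U_smul {g : G} (hg : g ∈ Q b) (x : X) : U b (g • x) = U b x := by
  obtain ⟨⟨a, r⟩, rfl⟩ := hg
  ext w
  constructor
  · rintro ⟨s, hs⟩
    refine ⟨s + 2 * B (a : Fin m ⊕ Fin m → F) (w : Fin m ⊕ Fin m → F), ?_⟩
    rw [← qel_conj b a w r s, mul_smul, mul_smul, hs, inv_smul_smul]
  · rintro ⟨s, hs⟩
    refine ⟨s - 2 * B (a : Fin m ⊕ Fin m → F) (w : Fin m ⊕ Fin m → F), ?_⟩
    have h := qel_conj b a w r (s - 2 * B (a : Fin m ⊕ Fin m → F) (w : Fin m ⊕ Fin m → F))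
    rw [sub_add_cancel] at h
    rw [← smul_left_cancel_iff (qel b a r)⁻¹, ← mul_smul, ← mul_smul, h, hs, inv_smul_smul]

variable (b)

/-- the orbit of the radical -/
noncomputable def orb [Fintype X] (x : X) : Finset X :=
  (Set.toFinite (MulAction.orbit (Q b) x)).toFinset

variable {b} [Fintype X]

theorem mem_orb {x y : X} : y ∈ orb b x ↔ ∃ w s, qel b w s • x = y := by
  rw [orb, Set.Finite.mem_toFinset, MulAction.mem_orbit_iff]
  constructor
  · rintro ⟨⟨g, ⟨⟨w, s⟩, rfl⟩⟩, rfl⟩; exact ⟨w, s, rfl⟩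
  · rintro ⟨w, s, rfl⟩; exact ⟨⟨_, mem_Q b w s⟩, rfl⟩

theorem mem_orb_self (x : X) : x ∈ orb b x := mem_orb.2 ⟨0, 0, by rw [qel_zero, one_smul]⟩

theorem orb_eq_of_mem {x y : X} (h : y ∈ orb b x) : orb b y = orb b x := by
  rw [orb, Set.Finite.mem_toFinset] at h
  have h' := MulAction.orbit_eq_iff.2 h
  ext z
  simp only [orb, Set.Finite.mem_toFinset, h']

theorem Z0_of_mem {x y : X} (h : y ∈ orb b x) : Z0 b y = Z0 b x := by
  obtain ⟨w, s, rfl⟩ := mem_orb.1 h
  exact Z0_smul (mem_Q b w s) x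

theorem U_of_mem {x y : X} (h : y ∈ orb b x) : U b y = U b x := by
  obtain ⟨w, s, rfl⟩ := mem_orb.1 h
  exact U_smul (mem_Q b w s) x

theorem card_stab (x : X) :
    Nat.card (MulAction.stabilizer (Q b) x) = Nat.card (U b x) * Nat.card (Z0 b x) := by
  rw [← Nat.card_prod]
  choose σ hσ using fun u : U b x => u.2
  have hmul : ∀ (u : U b x) (s : F),
      qel b (u : sub b) (σ u + s) = qel b (u : sub b) (σ u) * qel b 0 s := fun u s => by
    rw [qel_mul]; simp
  let f : U b x × Z0 b x → MulAction.stabilizer (Q b) x := fun t =>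
    ⟨⟨qel b (t.1 : sub b) (σ t.1 + t.2), mem_Q b _ _⟩, by
      show qel b (t.1 : sub b) (σ t.1 + t.2) • x = x
      rw [hmul, mul_smul, show qel b 0 (t.2 : F) • x = x from t.2.2, hσ]⟩
  refine (Nat.card_congr (Equiv.ofBijective f ⟨fun s t h => ?_, ?_⟩)).symm
  · obtain ⟨h1, h2⟩ := qel_inj b (congrArg (fun g => (g.1 : G)) h)
    have h1' : s.1 = t.1 := Subtype.ext h1
    rw [h1'] at h2
    exact Prod.ext h1' (Subtype.ext (add_left_cancel h2))
  · rintro ⟨⟨g, ⟨⟨w, s⟩, rfl⟩⟩, hg⟩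
    have hw : w ∈ U b x := ⟨s, hg⟩
    refine ⟨(⟨w, hw⟩, ⟨s - σ ⟨w, hw⟩, ?_⟩), Subtype.ext (Subtype.ext ?_)⟩
    · show qel b 0 (s - σ ⟨w, hw⟩) • x = x
      have h := hmul ⟨w, hw⟩ (s - σ ⟨w, hw⟩)
      rw [add_sub_cancel] at h
      have h2 : qel b w (σ ⟨w, hw⟩) • qel b 0 (s - σ ⟨w, hw⟩) • x = qel b w (σ ⟨w, hw⟩) • x := by
        rw [← mul_smul, ← h, show qel b w (σ ⟨w, hw⟩) • x = x from hσ ⟨w, hw⟩]
        exact hg
      exact (smul_left_cancel_iff _).1 h2
    · show qel b w (σ ⟨w, hw⟩ + (s - σ ⟨w, hw⟩)) = qel b w s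
      rw [add_sub_cancel]

theorem card_orb_mul (x : X) :
    (orb b x).card * (Nat.card (U b x) * Nat.card (Z0 b x)) =
      Nat.card (sub b) * Fintype.card F := by
  classical
  rw [← card_stab, ← card_Q, ← Nat.card_congr (MulAction.orbitProdStabilizerEquivGroup (Q b) x),
    Nat.card_prod, orb, ← Set.ncard_eq_toFinset_card, Set.ncard_def, Nat.card]
  rfl

theorem card_orb_perp {ψ : AddChar F ℂ} (hψ : ψ ≠ 1) (x : X) :
    (orb b x).card * Nat.card (Z0 b x) = Fintype.card F * Nat.card (perp b ψ (U b x)) := by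
  have h := card_orb_mul (b := b) x
  rw [← card_perp hψ (U b x)] at h
  have hpos : 0 < Nat.card (U b x) := Nat.card_pos
  exact Nat.eq_of_mul_eq_mul_left hpos (by linear_combination h)

theorem Lev.mem_U (e : Lev b) (x : X) {w : sub b} (h : w ∈ U b x) :
    e.l • e.map w ∈ U b (e.g • x) := by
  obtain ⟨s, hs⟩ := h
  refine ⟨e.l ^ 2 * s, ?_⟩
  rw [← e.conj, mul_smul, mul_smul, inv_smul_smul, hs]

theorem Lev.mem_Z0 (e : Lev b) (x : X) {s : F} :
    e.l ^ 2 * s ∈ Z0 b (e.g • x) ↔ s ∈ Z0 b x := by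
  show qel b 0 _ • _ = _ ↔ qel b 0 s • x = x
  have h := e.conj 0 s
  rw [map_zero, smul_zero] at h
  rw [← h, mul_smul, mul_smul, inv_smul_smul, smul_left_cancel_iff]

theorem Lev.Z0_eq (e : Lev b) (he : e.l ^ 2 = 1) (x : X) : Z0 b (e.g • x) = Z0 b x := by
  ext s
  have := e.mem_Z0 x (s := s)
  rwa [he, one_mul] at this

theorem Lev.orb_smul (e : Lev b) {x y : X} (h : y ∈ orb b x) : e.g • y ∈ orb b (e.g • x) := by
  obtain ⟨w, s, rfl⟩ := mem_orb.1 h
  refine mem_orb.2 ⟨e.l • e.map w, e.l ^ 2 * s, ?_⟩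
  rw [← e.conj, mul_smul, mul_smul, inv_smul_smul]

theorem Lev.orb_eq (e : Lev b) {x y : X} (h : orb b y = orb b x) :
    orb b (e.g • y) = orb b (e.g • x) :=
  orb_eq_of_mem (e.orb_smul (h ▸ mem_orb_self y))

theorem Lev.mem_perp (e : Lev b) (ψ : AddChar F ℂ) (x : X) {w : sub b}
    (h : w ∈ perp b ψ (U b x)) : e.l⁻¹ • e.map w ∈ perp b ψ (U b (e.g • x)) := by
  intro u hu
  have h1 := e.inv.mem_U (e.g • x) hu
  rw [show e.inv.g • e.g • x = x from inv_smul_smul e.g x] at h1
  refine Eq.trans ?_ (h _ h1)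
  congr 1
  simp only [pair, AddMonoidHom.coe_mk, ZeroHom.coe_mk, Submodule.coe_smul, map_smul,
    LinearMap.smul_apply, smul_eq_mul]
  conv_lhs => rw [← e.map_map_inv u]
  rw [e.bil_map]
  rfl

end Orbit

end Cfsg.Agent.MinSp
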