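import Cfsg.Agent.MinSp.Count

/-!
Selection of a suitable layer of orbits of the radical.
-/

set_option autoImplicit false
set_option linter.unusedSectionVars false

namespace Cfsg.Agent.MinSp

open Cfsg.Agent.Forms Cfsg.Agent.Linear.Symp
open scoped Matrix Classical

variable {F : Type*} [Field F] [Fintype F] {m : ℕ}
  {X : Type*} [MulAction (Matrix.symplecticGroup (Fin m) F) X] [Fintype X]

local notation "V" => (Fin m ⊕ Fin m → F)
local notation "G" => Matrix.symplecticGroup (Fin m) F
local notation "B" => sympBil m F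

variable {b : Pair F m}

theorem pos_of_pair (b : Pair F m) : 1 ≤ m := by
  by_contra h
  obtain rfl : m = 0 := by omega
  exact b.p_ne (funext fun i => isEmptyElim i)

theorem card_sub' (b : Pair F m) : Nat.card (sub b) = Fintype.card F ^ (2 * (m - 1)) := by
  refine Nat.eq_of_mul_eq_mul_right (pow_pos (Fintype.card_pos (α := F)) 2) ?_
  rw [card_sub, ← pow_add]
  have := pos_of_pair b
  congr 1
  omega

theorem sq_le_card_sub (b : Pair F m) (hm : 2 ≤ m) :
    Fintype.card F ^ 2 ≤ Nat.card (sub b) := by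
  rw [card_sub']
  exact Nat.pow_le_pow_right Fintype.card_pos (by omega)

theorem one_lt_card_sub (b : Pair F m) (hm : 2 ≤ m) : 1 < Nat.card (sub b) := by
  have := sq_le_card_sub b hm
  have h2 : 2 ≤ Fintype.card F := Fintype.one_lt_card
  nlinarith

theorem card_Z0_le (x : X) : Nat.card (Z0 b x) ≤ Fintype.card F := by
  rw [← Nat.card_eq_fintype_card]; exact (Z0 b x).card_le_card_addGroup

theorem card_Z0_lt {x : X} (h : Z0 b x ≠ ⊤) : Nat.card (Z0 b x) < Fintype.card F := by
  rcases (card_Z0_le (b := b) x).lt_or_eq with h' | h'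
  · exact h'
  · exact absurd ((Z0 b x).eq_top_of_card_eq (by rw [h', Nat.card_eq_fintype_card])) h

theorem mem_Z0_iff {x : X} {s : F} : s ∈ Z0 b x ↔ qel b 0 s • x = x := Iff.rfl

theorem qel_sub {x : X} {w : sub b} {s s' : F} (h : qel b w s • x = x) (h' : qel b w s' • x = x) :
    s - s' ∈ Z0 b x := by
  have e : (qel b w s')⁻¹ * qel b w s = qel b 0 (s - s') := by
    rw [qel_inv, qel_mul, neg_add_cancel, Submodule.coe_neg, map_neg, bil_self]
    congr 1
    ring
  rw [mem_Z0_iff, ← e, mul_smul, h, inv_smul_eq_iff, h']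

theorem card_ne_zero_F : (Finset.univ.filter fun a : F => a ≠ 0).card = Fintype.card F - 1 := by
  rw [Finset.filter_ne', Finset.card_erase_of_mem (Finset.mem_univ _), Finset.card_univ]

theorem card_ne_zero_sub [Fintype (sub b)] :
    (Finset.univ.filter fun v : sub b => v ≠ 0).card = Nat.card (sub b) - 1 := by
  rw [Finset.filter_ne', Finset.card_erase_of_mem (Finset.mem_univ _), Finset.card_univ,
    Nat.card_eq_fintype_card]

theorem count_z (x : X) :
    ((Finset.univ.filter fun a : F => a ≠ 0).filter fun a => qel b 0 a • x = x).card =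
      Nat.card (Z0 b x) - 1 := by
  rw [Nat.card_eq_fintype_card, Fintype.card_subtype, Finset.filter_filter,
    ← Finset.card_erase_of_mem (show (0 : F) ∈ Finset.univ.filter (· ∈ Z0 b x) by simp)]
  congr 1
  ext a
  simp [mem_Z0_iff]

/-- some point is moved by the centre of the radical -/
theorem exists_Z0_ne_top (htr : ∃ (g : G) (x : X), g • x ≠ x) : ∃ x : X, Z0 b x ≠ ⊤ := by
  by_contra! h
  obtain ⟨g, x, hgx⟩ := htr
  refine hgx ?_
  let K : Subgroup G :=
    { carrier := {g | ∀ y : X, g • y = y}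
      one_mem' := fun y => one_smul _ y
      mul_mem' := fun {a c} ha hc y => by rw [mul_smul, hc y, ha y]
      inv_mem' := fun {a} ha y => inv_smul_eq_iff.2 (ha y).symm }
  suffices K = ⊤ from (this ▸ Subgroup.mem_top g : g ∈ K) x
  refine closure_tau_le fun v c y => ?_
  by_cases hv : v = 0
  · rw [hv, tau_zero_vec, one_smul]
  obtain ⟨k, hk⟩ := exists_app_eq b.p_ne hv
  rw [← hk, ← tau_conj, mul_smul, mul_smul, ← qel_zero_left]
  have hc : c ∈ Z0 b (k⁻¹ • y) := by rw [h]; trivial
  rw [mem_Z0_iff.1 hc, smul_inv_smul]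

theorem fixN_tau (v : V) (hv : v ≠ 0) (c : F) : fixN X (tau v c) = fixN X (tau b.p c) := by
  obtain ⟨g, hg⟩ := exists_app_eq b.p_ne hv
  rw [← hg, ← tau_conj, fixN_conj]

/-! ### Odd characteristic -/

theorem isotropic (h2 : (2 : F) ≠ 0) {x : X} (hZ : Z0 b x ≠ ⊤) :
    Nat.card (U b x) * Nat.card (U b x) ≤ Nat.card (sub b) := by
  let _ : Fintype (F ⧸ Z0 b x) := Fintype.ofFinite _
  obtain ⟨a, ha⟩ : ∃ a, a ∉ Z0 b x := by
    by_contra! h; exact hZ (eq_top_iff.2 fun a _ => h a)
  obtain ⟨χ, hχ⟩ := (AddChar.exists_apply_ne_zero (α := F ⧸ Z0 b x)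
    (a := QuotientAddGroup.mk' (Z0 b x) a)).2 (by
      intro h; exact ha ((QuotientAddGroup.eq_zero_iff a).1 h))
  let ψ : AddChar F ℂ := (χ.compAddMonoidHom (QuotientAddGroup.mk' (Z0 b x))).compAddMonoidHom
    (AddMonoidHom.mulLeft (2 : F))
  have hψ : ψ ≠ 1 := by
    intro h
    have h' := congrArg (fun η : AddChar F ℂ => η (a / 2)) h
    simp only [ψ, AddChar.compAddMonoidHom_apply, AddMonoidHom.coe_mulLeft, mul_div_cancel₀ _ h2,
      AddChar.one_apply] at h'
    exact hχ h'
  refine le_trans (Nat.mul_le_mul_left _ ?_) (card_perp hψ (U b x)).le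
  refine AddSubgroup.card_le_of_le (fun w hw u hu => ?_)
  obtain ⟨s, hs⟩ := hw
  obtain ⟨t, ht⟩ := hu
  have h1 : qel b (u + w) (t + s + B (w : V) (u : V)) • x = x := by
    rw [← qel_mul, mul_smul, hs, ht]
  have h2' : qel b (w + u) (s + t + B (u : V) (w : V)) • x = x := by
    rw [← qel_mul, mul_smul, ht, hs]
  rw [add_comm u w] at h1
  have h3 := qel_sub h2' h1
  have e : s + t + B (u : V) (w : V) - (t + s + B (w : V) (u : V)) = 2 * B (u : V) (w : V) := by
    rw [bil_swap (w : V) (u : V)]; ring
  rw [e] at h3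
  show χ (QuotientAddGroup.mk' (Z0 b x) (2 * pair b w u)) = 1
  rw [show pair b w u = B (u : V) (w : V) from rfl,
    show QuotientAddGroup.mk' (Z0 b x) (2 * B (u : V) (w : V)) = 0 from
      (QuotientAddGroup.eq_zero_iff _).2 h3, AddChar.map_zero_eq_one]

theorem U_ne_top_of_odd (h2 : (2 : F) ≠ 0) (hm : 2 ≤ m) {x : X} (hZ : Z0 b x ≠ ⊤) :
    U b x ≠ ⊤ := by
  intro h
  have h1 := isotropic h2 hZ
  rw [h, AddSubgroup.card_top] at h1
  have := one_lt_card_sub b hm
  nlinarith

theorem select_odd (h2 : (2 : F) ≠ 0) (hm : 2 ≤ m) (htr : ∃ (g : G) (x : X), g • x ≠ x) :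
    ∃ x : X, Z0 b x = ⊥ ∧ U b x ≠ ⊤ := by
  let _ : Fintype (sub b) := Fintype.ofFinite _
  obtain ⟨x0, hx0⟩ := exists_Z0_ne_top (b := b) htr
  by_contra! hcon
  set q := Fintype.card F with hq
  set D := Nat.card (sub b) with hD
  let nzV : Finset (sub b) := Finset.univ.filter fun v => v ≠ 0
  let nzF : Finset F := Finset.univ.filter fun a => a ≠ 0
  let h : X → ℕ := fun y => q * ∑ v ∈ nzV, (nzF.filter fun c => tau (v : V) c • y = y).card
  let g : X → ℕ := fun y => q * ((D - 1) * (Nat.card (Z0 b y) - 1))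
  let g' : X → ℕ := fun y => (q - 1) * ∑ v ∈ nzV, (uvs y v).card
  have hid : ∑ y, h y = ∑ y, g y := by
    have e1 : ∀ v ∈ nzV, ∑ y : X, (nzF.filter fun c => tau (v : V) c • y = y).card =
        ∑ c ∈ nzF, fixN X (qel b 0 c) := by
      intro v hv
      rw [← sum_fixN (X := X) nzF fun c => tau (v : V) c]
      refine Finset.sum_congr rfl fun c _ => ?_
      rw [qel_zero_left]
      exact fixN_tau _ (fun e => (Finset.mem_filter.1 hv).2 (Subtype.ext e)) c
    simp only [h, g, ← Finset.mul_sum]
    rw [Finset.sum_comm, Finset.sum_congr rfl e1, Finset.sum_const, smul_eq_mul, sum_fixN,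
      card_ne_zero_sub]
    simp only [nzF, count_z, ← hD]
  have hle : ∑ y, h y ≤ ∑ y, g' y := by
    refine sum_le_of_orb b h g' (fun x y hy => ?_) fun x => ?_
    · simp only [g', uvs, U_of_mem hy]
    calc ∑ y ∈ orb b x, h y
        = ∑ v ∈ nzV, ∑ c ∈ nzF, q * ((orb b x).filter fun y => tau (v : V) c • y = y).card := by
          simp only [h, Finset.card_filter, Finset.mul_sum]
          rw [Finset.sum_comm]
          exact Finset.sum_congr rfl fun v _ => Finset.sum_comm
      _ ≤ ∑ v ∈ nzV, ∑ _c ∈ nzF, (orb b x).card * (uvs x v).card := by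
          refine Finset.sum_le_sum fun v hv => Finset.sum_le_sum fun c hc => ?_
          refine le_trans (Nat.mul_le_mul_left _ (Finset.card_le_card ?_))
            (card_fixed_orb (Finset.mem_filter.1 hv).2 (Finset.mem_filter.1 hc).2 x)
          intro y hy
          simp only [Finset.mem_filter] at hy ⊢
          exact ⟨hy.1, 0, by rw [qel_zero, mul_one, hy.2]⟩
      _ = _ := by
          simp only [g', Finset.sum_const, smul_eq_mul, Finset.mul_sum, nzF, card_ne_zero_F, ← hq]
          refine Finset.sum_congr rfl fun v _ => ?_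
          ring
  have hDq : q ^ 2 ≤ D := sq_le_card_sub b hm
  have hq3 : 3 ≤ q ∧ q % 2 = 1 := by
    have h1 : q % 2 = 1 := FiniteField.odd_card_of_char_ne_two (F := F)
      fun h => h2 (by exact_mod_cast (ringChar.spec F 2).2 (h ▸ dvd_rfl))
    have h2' : 2 ≤ q := Fintype.one_lt_card
    omega
  have key : ∀ y : X, g' y ≤ g y ∧ (Z0 b y ≠ ⊤ → g' y < g y) := by
    intro y
    have hU : Nat.card (U b y) ≤ D := (U b y).card_le_card_addGroup
    have hUp : 0 < Nat.card (U b y) := Nat.card_pos
    simp only [g', g, nzV, sum_uvs, ← hq, ← hD]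
    obtain ⟨u, hu⟩ := Nat.exists_eq_add_of_le hUp
    obtain ⟨r, hr⟩ := Nat.exists_eq_add_of_le (show 1 ≤ q by omega)
    obtain ⟨e, he⟩ := Nat.exists_eq_add_of_le (show 1 ≤ D by nlinarith)
    rw [hu, hr, he, Nat.add_sub_cancel_left, Nat.add_sub_cancel_left, Nat.add_sub_cancel_left]
    by_cases hZ : Z0 b y = ⊤
    · refine ⟨?_, fun h => absurd hZ h⟩
      rw [hZ, AddSubgroup.card_top, Nat.card_eq_fintype_card, ← hq, hr, Nat.add_sub_cancel_left]
      have hue : u ≤ e := by omega
      nlinarith [Nat.mul_le_mul_left (r * r) hue]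
    suffices r * (e + r * u) < (1 + r) * (e * (Nat.card (Z0 b y) - 1)) from ⟨this.le, fun _ => this⟩
    have hz1 : Nat.card (Z0 b y) ≠ 1 := fun h1 =>
      U_ne_top_of_odd h2 hm hZ (hcon y ((Z0 b y).eq_bot_of_card_eq h1))
    have hzd : Nat.card (Z0 b y) ∣ q := by
      rw [hq, ← Nat.card_eq_fintype_card]; exact (Z0 b y).card_addSubgroup_dvd_card
    have hzodd : Nat.card (Z0 b y) % 2 = 1 := by
      rcases Nat.even_or_odd (Nat.card (Z0 b y)) with h | h
      · have := Nat.dvd_trans h.two_dvd hzd; omega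
      · exact Nat.odd_iff.1 h
    have hiso := isotropic h2 hZ
    rw [← hD, hu, he] at hiso
    have hz : 2 ≤ Nat.card (Z0 b y) - 1 := by omega
    have h3 : r * r * u < (2 + r) * e := by
      rw [hr, he] at hDq
      rcases le_or_gt u r with hur | hur
      · nlinarith [Nat.mul_le_mul_left (r * r) hur,
          Nat.mul_le_mul_left r (show r * r ≤ e by nlinarith)]
      · nlinarith [Nat.mul_le_mul_right u (Nat.mul_le_mul_left r hur.le)]
    nlinarith [Nat.mul_le_mul_left ((1 + r) * e) hz]
  have hlt : ∑ y, g' y < ∑ y, g y :=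
    Finset.sum_lt_sum (fun y _ => (key y).1) ⟨x0, Finset.mem_univ _, (key x0).2 hx0⟩
  omega

/-! ### Characteristic two -/

theorem exists_sqrt (h2 : (2 : F) = 0) (a : F) : ∃ r, r * r = a := by
  obtain ⟨r, hr⟩ := FiniteField.isSquare_of_char_two (CharP.ringChar_of_prime_eq_zero Nat.prime_two (by exact_mod_cast h2)) a
  exact ⟨r, hr.symm⟩

theorem exists_app_pair {a c : V} (hac : B a c = 0) (ha : a ≠ 0) (hc : ∀ t : F, c ≠ t • a)
    {v : sub b} (hv : v ≠ 0) : ∃ g : G, app g a = b.p ∧ app g c = (v : V) := by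
  obtain ⟨g, hg⟩ := exists_app_eq ha b.p_ne
  have h1 : B (app g c) b.p = 0 := by rw [← hg, sympBil_app, bil_swap, hac, neg_zero]
  obtain ⟨w, hw⟩ : ∃ w : sub b, (w : V) = app g c - B (app g c) b.p' • b.p :=
    ⟨⟨_, by constructor <;> simp [bil_self, h1, b.h]⟩, rfl⟩
  have hw0 : w ≠ 0 := by
    intro e
    refine hc (B (app g c) b.p') ?_
    have h3 : app g c = B (app g c) b.p' • b.p := by
      rw [← sub_eq_zero, ← hw, e]; rfl
    calc c = app g⁻¹ (app g c) := (app_inv_app g c).symm
      _ = app g⁻¹ (B (app g c) b.p' • app g a) := by rw [hg, ← h3]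
      _ = _ := by rw [← app_smul, app_inv_app]
  obtain ⟨u, hu⟩ := exists_bil_sub hw0
  obtain ⟨e, he, hev⟩ := exists_lev_map hw0 hv
  refine ⟨e.g * qel b (-(B (app g c) b.p') • u) 0 * g, ?_, ?_⟩
  · rw [app_mul, app_mul, hg, app_qel, bpw, bil_self]
    simp only [zero_smul, mul_zero, add_zero]
    rw [e.hp, he, one_smul]
  · rw [app_mul, app_mul, app_qel, h1]
    have h4 : B (app g c) (u : V) = 1 := by
      rw [show app g c = (w : V) + B (app g c) b.p' • b.p by rw [hw, sub_add_cancel]]
      simp [hu, bpw]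
    rw [Submodule.coe_smul, map_smul, smul_eq_mul, h4, mul_one, zero_smul, mul_zero, zero_smul,
      add_zero, add_zero, neg_smul, ← sub_eq_add_neg, ← hw]
    exact congrArg Subtype.val hev

theorem qel_eq_two (h2 : (2 : F) = 0) (w : sub b) {s : F} (hs : s ≠ 0) :
    qel b w s = tau ((w : V) + s • b.p) s⁻¹ * tau (w : V) s⁻¹ := by
  refine sp_ext fun x => ?_
  rw [app_mul, app_tau, app_tau, app_qel]
  simp only [map_add, map_smul, LinearMap.add_apply, LinearMap.smul_apply, bil_self, bwp, bpw,
    smul_eq_mul, mul_zero, add_zero]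
  match_scalars
  · field_simp
  · field_simp
  · field_simp
    linear_combination -(B x (w : V)) * h2

theorem fixN_two (h2 : (2 : F) = 0) {a c : V} (hac : B a c = 0) (ha : a ≠ 0)
    (hc : ∀ t : F, c ≠ t • a) {r s : F} (hr : r ≠ 0) (hs : s ≠ 0) {v : sub b} (hv : v ≠ 0) :
    fixN X (tau a r * tau c s) = fixN X (tau b.p 1 * tau (v : V) 1) := by
  obtain ⟨r', rfl⟩ := exists_sqrt h2 r
  obtain ⟨s', rfl⟩ := exists_sqrt h2 s
  have hr' : r' ≠ 0 := fun e => hr (by simp [e])
  have hs' : s' ≠ 0 := fun e => hs (by simp [e])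
  have e1 : tau a (r' * r') = tau (r' • a) 1 := by rw [tau_smul, one_mul, sq]
  have e2 : tau c (s' * s') = tau (s' • c) 1 := by rw [tau_smul, one_mul, sq]
  obtain ⟨g, hga, hgc⟩ := exists_app_pair (a := r' • a) (c := s' • c)
    (by simp [hac]) (smul_ne_zero hr' ha) (fun t e => hc (s'⁻¹ * (t * r'))
      (by rw [mul_smul, mul_smul, ← e, inv_smul_smul₀ hs'])) hv
  rw [e1, e2, ← fixN_conj g (tau (r' • a) 1 * tau (s' • c) 1), conj_mul.symm, tau_conj, tau_conj,
    hga, hgc]

/-- pairs in the stabiliser with both entries nonzero -/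
noncomputable def mixed (b : Pair F m) [Fintype (sub b)] (x : X) : ℕ :=
  (((Finset.univ.filter fun w : sub b => w ≠ 0) ×ˢ (Finset.univ.filter fun a : F => a ≠ 0)).filter
    fun t => qel b t.1 t.2 • x = x).card

theorem qel_smul_of_mem_two (h2 : (2 : F) = 0) {x y : X} (hy : y ∈ orb b x) (w : sub b) (s : F) :
    qel b w s • y = y ↔ qel b w s • x = x := by
  obtain ⟨a, r, rfl⟩ := mem_orb.1 hy
  rw [← mul_smul]
  have h := qel_conj b a w r s
  rw [h2, zero_mul, add_zero, mul_assoc, inv_mul_eq_iff_eq_mul] at h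
  rw [h, mul_smul, smul_left_cancel_iff]

/-- the vectors with a moved fixed point on the orbit -/
def pres (b : Pair F m) (x : X) (v : sub b) : Prop :=
  ∃ y ∈ orb b x, ∃ e, (tau (v : V) 1 * qel b 0 e) • y = y

theorem pres_fix (h2 : (2 : F) = 0) {x : X} {v : sub b} (hv : pres b x v) (hv0 : v ≠ 0)
    (hU : U b x = ⊤) (t : F) : qel b (t • v) (t ^ 2) • x = x := by
  obtain ⟨y, hy, e, he⟩ := hv
  have he' : tau (v : V) 1 • y = qel b 0 (-e) • y := by
    conv_rhs => rw [← he, tau_qel_zero, mul_smul, ← mul_smul, ← z_add]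
    simp [qel_zero]
  obtain ⟨w, hw⟩ := exists_bil_sub hv0
  have hu : -(t • w) ∈ U b y := by rw [U_of_mem hy, hU]; trivial
  obtain ⟨s, hs⟩ := hu
  have h3 := tau_stab he' hs
  have e1 : pair b v (-(t • w)) = t := by
    show B _ _ = _
    rw [bil_swap, Submodule.coe_neg, Submodule.coe_smul, map_neg, map_smul, hw]
    simp
  have e3 : -(t ^ 2) = t ^ 2 := by linear_combination -(t ^ 2) * h2
  rw [e1, h2, zero_mul, one_mul, one_mul, zero_sub, e3] at h3
  exact (qel_smul_of_mem_two h2 hy _ _).1 h3

theorem pres_line (h2 : (2 : F) = 0) {x : X} (hZ : Z0 b x ≠ ⊤) (hU : U b x = ⊤) {v : sub b}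
    (hv : v ≠ 0) {a : F} (ha : a ≠ 0) (h : pres b x v) (h' : pres b x (a • v)) : a = 1 := by
  by_contra ha1
  refine hZ (eq_top_iff.2 fun s _ => ?_)
  have hd : 1 - a ^ 2 ≠ 0 := by
    intro e
    have : (a - 1) * (a - 1) = 0 := by linear_combination -e + (1 - a) * h2
    exact ha1 (sub_eq_zero.1 (mul_self_eq_zero.1 this))
  obtain ⟨t, ht⟩ := exists_sqrt h2 (s / (1 - a ^ 2))
  have h1 := pres_fix h2 h' (smul_ne_zero ha hv) hU t
  have h3 := pres_fix h2 h hv hU (t * a)
  rw [mul_smul] at h3
  have h4 := qel_sub h1 h3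
  rwa [mul_pow, sq t, ht, ← mul_one_sub, div_mul_cancel₀ _ hd] at h4

theorem mixed_bound (h2 : (2 : F) = 0) (hq : 4 ≤ Fintype.card F) (hm : 2 ≤ m) [Fintype (sub b)]
    {x : X} (hU : U b x = ⊤) :
    Nat.card (sub b) - 1 < (Fintype.card F - 1) * mixed b x := by
  set nzV : Finset (sub b) := Finset.univ.filter fun v => v ≠ 0
  set N : Finset (sub b) := Finset.univ.filter fun w => qel b w 0 • x = x with hN
  have hsplit : (Nat.card (sub b) - 1) * Nat.card (Z0 b x) ≤ mixed b x + (N.card - 1) := by
    choose σ hσ using fun w : sub b => (show w ∈ U b x by rw [hU]; trivial)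
    let T := (nzV ×ˢ (Finset.univ : Finset F)).filter fun t => qel b t.1 t.2 • x = x
    have h1 : (Nat.card (sub b) - 1) * Nat.card (Z0 b x) ≤ T.card := by
      rw [← card_ne_zero_sub, Nat.card_eq_fintype_card (α := Z0 b x), ← Finset.card_univ,
        ← Finset.card_product]
      refine Finset.card_le_card_of_injOn (fun t => (t.1, σ t.1 + t.2.1)) (fun t ht => ?_)
        fun t _ t' _ h => ?_
      · simp only [Finset.mem_coe, Finset.mem_product] at ht
        simp only [T, Finset.mem_coe, Finset.mem_filter, Finset.mem_product, Finset.mem_univ, and_true]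
        refine ⟨ht.1, ?_⟩
        have e : qel b t.1 (σ t.1 + t.2.1) = qel b t.1 (σ t.1) * qel b 0 t.2.1 := by
          rw [qel_mul]; simp
        rw [e, mul_smul, mem_Z0_iff.1 t.2.2, hσ]
      · simp only [Prod.mk.injEq] at h
        obtain ⟨h1, h2⟩ := h
        rw [h1] at h2
        exact Prod.ext h1 (Subtype.ext (add_left_cancel h2))
    refine h1.trans ?_
    rw [← Finset.card_filter_add_card_filter_not (s := T) (fun t => t.2 ≠ 0)]
    refine add_le_add (le_of_eq ?_) ?_
    · unfold mixed
      congr 1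
      ext t
      simp [T, nzV]
      tauto
    · rw [← Finset.card_erase_of_mem (show (0 : sub b) ∈ N by simp [N, qel_zero])]
      refine Finset.card_le_card_of_injOn (fun t => t.1) (fun t ht => ?_) fun t ht t' ht' h => ?_
      · simp only [T, nzV, N, Finset.mem_coe, Finset.mem_filter, Finset.mem_product, Finset.mem_univ,
          true_and, and_true, Finset.mem_erase, not_not] at ht ⊢
        exact ⟨ht.1.1, ht.2 ▸ ht.1.2⟩
      · simp only [Finset.mem_coe, Finset.mem_filter, not_not] at ht ht'
        exact Prod.ext h (ht.2.trans ht'.2.symm)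
  set q := Fintype.card F with hqd
  set D := Nat.card (sub b) with hD
  have hDq : q ^ 2 ≤ D := sq_le_card_sub b hm
  have hND : N.card ≤ D := by rw [hD, Nat.card_eq_fintype_card]; exact Finset.card_le_univ _
  have hzpos : 0 < Nat.card (Z0 b x) := Nat.card_pos
  by_cases hz : 2 ≤ Nat.card (Z0 b x)
  · have h1 : (D - 1) * 2 ≤ (D - 1) * Nat.card (Z0 b x) := Nat.mul_le_mul_left _ hz
    have h3 : D - 1 ≤ mixed b x := by omega
    obtain ⟨r, hr⟩ := Nat.exists_eq_add_of_le (show 2 ≤ q - 1 by omega)
    rw [hr]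
    have := one_lt_card_sub b hm
    have : 0 < D - 1 := by omega
    nlinarith [Nat.mul_le_mul_left (2 + r) h3]
  have hz1 : Nat.card (Z0 b x) = 1 := by omega
  rw [hz1, mul_one] at hsplit
  have hNb : N.card ≤ 1 ∨ q * (2 * N.card) ≤ q * D + D := by
    by_cases h1 : ∃ u ∈ N, u ≠ 0
    · obtain ⟨u, hu, hu0⟩ := h1
      right
      let K : Finset (sub b) := Finset.univ.filter fun w => pair b u w ∈ ({0} : Finset F)
      have hK : q * K.card = D := by
        have := card_pair_fiber (b := b) hu0 ({0} : Finset F)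
        rwa [Finset.card_singleton, one_mul] at this
      have h3 : (N \ K).card + N.card ≤ D := by
        rw [hD, Nat.card_eq_fintype_card]
        refine le_trans (le_of_eq ?_) (Finset.card_le_univ
          ((N \ K).map (addRightEmbedding u) ∪ N))
        rw [Finset.card_union_of_disjoint, Finset.card_map]
        rw [Finset.disjoint_left]
        intro y hy hyN
        obtain ⟨w, hw, rfl⟩ := Finset.mem_map.1 hy
        simp only [addRightEmbedding, Function.Embedding.coeFn_mk, N, K, Finset.mem_sdiff,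
          Finset.mem_filter, Finset.mem_univ, true_and, Finset.mem_singleton] at hw hyN hu
        have h4 : qel b (w + u) (0 + 0 + B (u : V) (w : V)) • x = x := by
          rw [← qel_mul, mul_smul, hu, hw.1]
        have h5 := qel_sub h4 hyN
        rw [(Z0 b x).eq_bot_of_card_eq hz1, AddSubgroup.mem_bot, add_zero, zero_add, sub_zero] at h5
        apply hw.2
        show B _ _ = 0
        rw [bil_swap, h5, neg_zero]
      have h4 : N.card ≤ (N \ K).card + K.card := by
        rw [← Finset.card_sdiff_add_card_inter N K]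
        exact Nat.add_le_add_left (Finset.card_le_card Finset.inter_subset_right) _
      have h6 : 2 * N.card ≤ D + K.card := by omega
      nlinarith [Nat.mul_le_mul_left q h6]
    · left
      push_neg at h1
      exact Finset.card_le_one.2 fun a ha c hc => (h1 a ha).trans (h1 c hc).symm
  obtain ⟨r, hr⟩ := Nat.exists_eq_add_of_le (show 1 ≤ q by omega)
  rw [hr, Nat.add_sub_cancel_left]
  have hN1 : 0 < N.card := Finset.card_pos.2 ⟨0, by simp [N, qel_zero]⟩
  have hM : D ≤ mixed b x + N.card := by omega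
  rcases hNb with h | h
  · have := one_lt_card_sub b hm
    have : 0 < D - 1 := by omega
    nlinarith [Nat.mul_le_mul_left r (show D - 1 ≤ mixed b x by omega)]
  · rw [hr] at h
    by_contra! hle
    have hle' : r * mixed b x ≤ D := by omega
    nlinarith [Nat.mul_le_mul_left (2 * (1 + r) * r) hM, Nat.mul_le_mul_left r h,
      Nat.mul_le_mul_right (D * r) (show 3 ≤ r by omega)]

theorem select_two (h2 : (2 : F) = 0) (hq : 3 ≤ Fintype.card F) (hm : 2 ≤ m)
    (htr : ∃ (g : G) (x : X), g • x ≠ x) : ∃ x : X, Z0 b x ≠ ⊤ ∧ U b x ≠ ⊤ := by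
  let _ : Fintype (sub b) := Fintype.ofFinite _
  obtain ⟨x0, hx0⟩ := exists_Z0_ne_top (b := b) htr
  by_contra! hcon
  set q := Fintype.card F with hqd
  set D := Nat.card (sub b) with hD
  have hq4 : 4 ≤ q := by
    have h1 : q % 2 = 0 :=
      FiniteField.even_card_of_char_two (CharP.ringChar_of_prime_eq_zero Nat.prime_two (by exact_mod_cast h2))
    omega
  let nzV : Finset (sub b) := Finset.univ.filter fun v => v ≠ 0
  let nzF : Finset F := Finset.univ.filter fun a => a ≠ 0
  let n : X → sub b → ℕ := fun y v =>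
    (Finset.univ.filter fun e => (tau (v : V) 1 * qel b 0 e) • y = y).card
  let h : X → ℕ := fun y => q * ((q - 1) * ∑ v ∈ nzV, n y v)
  let g : X → ℕ := fun y => q * ((D - 1) * (Nat.card (Z0 b y) - 1) + (q - 1) * mixed b y)
  let g' : X → ℕ := fun y => (q - 1) * (Nat.card (Z0 b y) *
    ∑ v ∈ nzV.filter (pres b y), (uvs y v).card)
  obtain ⟨v0, hv0⟩ : ∃ v : sub b, v ≠ 0 := by
    have := one_lt_card_sub b hm
    rw [Nat.card_eq_fintype_card, Fintype.one_lt_card_iff] at this
    obtain ⟨u, w, huw⟩ := this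
    rcases eq_or_ne u 0 with rfl | hu
    · exact ⟨w, huw.symm⟩
    · exact ⟨u, hu⟩
  set φ1 := fixN X (tau b.p (1 : F)) with hφ1
  set φ2 := fixN X (tau b.p (1 : F) * tau (v0 : V) 1) with hφ2
  have hne : ∀ {v : sub b}, v ≠ 0 → (v : V) ≠ 0 := fun hv e => hv (Subtype.ext e)
  have f1 : ∀ {v : V}, v ≠ 0 → ∀ {e : F}, e ≠ 0 → fixN X (tau v e) = φ1 := by
    intro v hv e he
    obtain ⟨r, rfl⟩ := exists_sqrt h2 e
    have e1 : tau v (r * r) = tau (r • v) 1 := by rw [tau_smul, one_mul, sq]
    rw [e1]
    exact fixN_tau _ (smul_ne_zero (fun h => he (by simp [h])) hv) _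
  have hid : ∑ y, h y = ∑ y, g y := by
    have e1 : ∑ y : X, ∑ v ∈ nzV, n y v = (D - 1) * (φ1 + (q - 1) * φ2) := by
      rw [Finset.sum_comm]
      have : ∀ v ∈ nzV, ∑ y : X, n y v = φ1 + (q - 1) * φ2 := by
        intro v hv
        have hv' := (Finset.mem_filter.1 hv).2
        rw [← sum_fixN (X := X) Finset.univ fun e => tau (v : V) 1 * qel b 0 e,
          ← Finset.add_sum_erase _ _ (Finset.mem_univ (0 : F)), qel_zero, mul_one,
          f1 (hne hv') one_ne_zero]
        congr 1
        rw [Finset.sum_congr rfl fun e he => ?_, Finset.sum_const, smul_eq_mul,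
          Finset.card_erase_of_mem (Finset.mem_univ _), Finset.card_univ]
        rw [qel_zero_left]
        refine fixN_two h2 (bwp v) (hne hv') (fun t e' => ?_) one_ne_zero
          (Finset.ne_of_mem_erase he) hv0
        have := b.h
        rw [e', map_smul, LinearMap.smul_apply, bwp', smul_zero] at this
        exact zero_ne_one this
      rw [Finset.sum_congr rfl this, Finset.sum_const, smul_eq_mul, card_ne_zero_sub]
    have e2 : ∑ y : X, (Nat.card (Z0 b y) - 1) = (q - 1) * φ1 := by
      simp only [← count_z]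
      rw [← sum_fixN, Finset.sum_congr rfl fun e he => ?_, Finset.sum_const, smul_eq_mul,
        card_ne_zero_F]
      rw [qel_zero_left]
      exact f1 b.p_ne (Finset.mem_filter.1 he).2
    have e3 : ∑ y : X, mixed b y = (D - 1) * (q - 1) * φ2 := by
      unfold mixed
      rw [← sum_fixN, Finset.sum_congr rfl fun t ht => ?_, Finset.sum_const, smul_eq_mul,
        Finset.card_product, card_ne_zero_sub, card_ne_zero_F]
      obtain ⟨hw, hs⟩ := Finset.mem_product.1 ht
      have hw' := (Finset.mem_filter.1 hw).2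
      have hs' := (Finset.mem_filter.1 hs).2
      rw [qel_eq_two h2 _ hs']
      refine fixN_two h2 (by simp [bil_self, bpw]) (fun e => ?_) (fun t e => ?_)
        (inv_ne_zero hs') (inv_ne_zero hs') hv0
      · have := congrArg (fun z => B z b.p') e
        simp [bwp', b.h] at this
        exact hs' this
      · have := congrArg (fun z => B z b.p') e
        simp [bwp', b.h] at this
        rcases this with rfl | h
        · exact hne hw' (by simpa using e)
        · exact hs' h
    simp only [h, g, ← Finset.mul_sum, Finset.sum_add_distrib, e1, e2, e3]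
    ring
  have hle : ∑ y, h y ≤ ∑ y, g' y := by
    refine sum_le_of_orb b h g' (fun x y hy => ?_) fun x => ?_
    · have hp : pres b y = pres b x := funext fun v => by simp only [pres, orb_eq_of_mem hy]
      simp only [g', uvs, U_of_mem hy, Z0_of_mem hy, hp]
    have key : ∀ v ∈ nzV, q * ∑ y ∈ orb b x, n y v ≤
        (orb b x).card * (Nat.card (Z0 b x) * if pres b x v then (uvs x v).card else 0) := by
      intro v hv
      by_cases hp : pres b x v
      · rw [if_pos hp]
        have h1 := card_fixed_orb (X := X) (Finset.mem_filter.1 hv).2 one_ne_zero x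
        calc q * ∑ y ∈ orb b x, n y v
            ≤ q * ∑ y ∈ orb b x, if ∃ e, (tau (v : V) 1 * qel b 0 e) • y = y
                then Nat.card (Z0 b x) else 0 := by
              refine Nat.mul_le_mul_left _ (Finset.sum_le_sum fun y hy => ?_)
              split_ifs with he
              · obtain ⟨e1, he1⟩ := he
                rw [← Z0_of_mem hy, Nat.card_eq_fintype_card, Fintype.card_subtype]
                refine Finset.card_le_card_of_injOn (fun e => e - e1) (fun e he => ?_)
                  fun _ _ _ _ h => sub_left_injective h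
                simp only [Finset.mem_coe, Finset.mem_filter, Finset.mem_univ, true_and] at he ⊢
                rw [mem_Z0_iff, sub_eq_neg_add, z_add, mul_smul]
                have hcancel := he.trans he1.symm
                rw [mul_smul, mul_smul, smul_left_cancel_iff] at hcancel
                rw [hcancel, ← mul_smul, ← z_add, neg_add_cancel, qel_zero, one_smul]
              · simp only [n, Nat.le_zero, Finset.card_eq_zero, Finset.filter_eq_empty_iff]
                exact fun e _ h => he ⟨e, h⟩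
          _ ≤ _ := by
              rw [← Finset.sum_filter, Finset.sum_const, smul_eq_mul, ← mul_assoc,
                mul_comm _ (uvs x v).card, ← mul_assoc]
              exact Nat.mul_le_mul_right _ h1
      · rw [if_neg hp, mul_zero, mul_zero, Nat.le_zero, mul_eq_zero]
        right
        refine Finset.sum_eq_zero fun y hy => ?_
        simp only [n, Finset.card_eq_zero, Finset.filter_eq_empty_iff]
        exact fun e _ h => hp ⟨y, hy, e, h⟩
    calc ∑ y ∈ orb b x, h y = (q - 1) * ∑ v ∈ nzV, q * ∑ y ∈ orb b x, n y v := by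
          simp only [h, Finset.mul_sum]
          rw [Finset.sum_comm]
          refine Finset.sum_congr rfl fun v _ => Finset.sum_congr rfl fun y _ => ?_
          ring
      _ ≤ _ := Nat.mul_le_mul_left _ (Finset.sum_le_sum key)
      _ = _ := by
          simp only [g', Finset.sum_filter, Finset.mul_sum]
          refine Finset.sum_congr rfl fun v _ => ?_
          ring
  have key : ∀ y : X, g' y ≤ g y ∧ (Z0 b y ≠ ⊤ → g' y < g y) := by
    intro y
    by_cases hZ : Z0 b y = ⊤
    · refine ⟨?_, fun h => absurd hZ h⟩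
      have hM : mixed b y = (Nat.card (U b y) - 1) * (q - 1) := by
        have e : (((Finset.univ.filter fun w : sub b => w ≠ 0) ×ˢ nzF).filter
            fun t => qel b t.1 t.2 • y = y) =
            ((Finset.univ.filter fun w : sub b => w ∈ U b y).erase 0) ×ˢ nzF := by
          ext ⟨w, s⟩
          simp only [Finset.mem_filter, Finset.mem_product, Finset.mem_univ, true_and,
            Finset.mem_erase]
          constructor
          · rintro ⟨⟨h1, h3⟩, h4⟩; exact ⟨⟨h1, s, h4⟩, h3⟩
          · rintro ⟨⟨h1, ⟨s', h4⟩⟩, h3⟩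
            refine ⟨⟨h1, h3⟩, ?_⟩
            have hz : qel b 0 (s - s') • y = y := mem_Z0_iff.1 (hZ ▸ trivial)
            have e : qel b w s = qel b w s' * qel b 0 (s - s') := by rw [qel_mul]; simp
            rw [e, mul_smul, hz, h4]
        show ((_ ×ˢ nzF).filter _).card = _
        rw [e, Finset.card_product, Finset.card_erase_of_mem (by simp), card_ne_zero_F,
          Nat.card_eq_fintype_card, Fintype.card_subtype]
      simp only [g, g', hM, hZ, AddSubgroup.card_top, Nat.card_eq_fintype_card (α := F), ← hqd]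
      refine le_trans (Nat.mul_le_mul_left _ (Nat.mul_le_mul_left _
        (Finset.sum_le_sum_of_subset (Finset.filter_subset _ _)))) (le_of_eq ?_)
      rw [sum_uvs]
      ring
    suffices g' y < g y from ⟨this.le, fun _ => this⟩
    have hU := hcon y hZ
    have hM := mixed_bound h2 hq4 hm hU
    have hpres : (nzV.filter (pres b y)).card * (q - 1) ≤ D - 1 := by
      rw [hD, ← card_ne_zero_sub (b := b), hqd, ← card_ne_zero_F (F := F), ← Finset.card_product]
      refine Finset.card_le_card_of_injOn (fun t => t.2 • t.1) (fun t ht => ?_)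
        fun t ht t' ht' h => ?_
      · simp only [nzV, Finset.mem_coe, Finset.mem_product, Finset.mem_filter, Finset.mem_univ,
          true_and] at ht ⊢
        exact smul_ne_zero ht.2 ht.1.1
      · simp only [nzV, Finset.mem_coe, Finset.mem_product, Finset.mem_filter, Finset.mem_univ,
          true_and] at ht ht'
        have h' : t'.1 = (t'.2⁻¹ * t.2) • t.1 := by
          rw [mul_smul]; exact (eq_inv_smul_iff₀ ht'.2).2 h.symm
        have h1 := pres_line h2 hZ hU ht.1.1 (mul_ne_zero (inv_ne_zero ht'.2) ht.2) ht.1.2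
          (h' ▸ ht'.1.2)
        rw [h1, one_smul] at h'
        exact Prod.ext h'.symm ((inv_mul_eq_one₀ ht'.2).1 h1).symm
    have huvs : ∑ v ∈ nzV.filter (pres b y), (uvs y v).card =
        (nzV.filter (pres b y)).card * q := by
      rw [Finset.sum_congr rfl fun v _ => ?_, Finset.sum_const, smul_eq_mul]
      simp [uvs, hU, hqd]
    simp only [g, g', huvs]
    have hz : 1 ≤ Nat.card (Z0 b y) := Nat.card_pos
    obtain ⟨z', hz'⟩ := Nat.exists_eq_add_of_le hz
    rw [hz', Nat.add_sub_cancel_left]
    calc (q - 1) * ((1 + z') * ((nzV.filter (pres b y)).card * q))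
        = (1 + z') * q * ((nzV.filter (pres b y)).card * (q - 1)) := by ring
      _ ≤ (1 + z') * q * (D - 1) := Nat.mul_le_mul_left _ hpres
      _ < _ := by nlinarith [Nat.mul_lt_mul_of_pos_left hM (show 0 < q by omega)]
  have hlt : ∑ y, g' y < ∑ y, g y :=
    Finset.sum_lt_sum (fun y _ => (key y).1) ⟨x0, Finset.mem_univ _, (key x0).2 hx0⟩
  omega

end Cfsg.Agent.MinSp
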