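import Mathlib
import Cfsg.Agent.Linear.Symplectic

/-!
The radical of the stabiliser of a point in the symplectic group, in coordinates.
-/

set_option autoImplicit false

namespace Cfsg.Agent.MinSp

open Cfsg.Agent.Forms Cfsg.Agent.Linear.Symp
open scoped Matrix

variable {F : Type*} [Field F] {m : ℕ}

local notation "V" => (Fin m ⊕ Fin m → F)
local notation "G" => Matrix.symplecticGroup (Fin m) F
local notation "B" => sympBil m F

/-- a hyperbolic pair -/
structure Pair (F : Type*) [Field F] (m : ℕ) where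
  p : Fin m ⊕ Fin m → F
  p' : Fin m ⊕ Fin m → F
  h : sympBil m F p p' = 1

variable (b : Pair F m)

theorem bil_self (x : V) : B x x = 0 := sympBil_isAlt.self_eq_zero x

theorem Pair.h' : B b.p' b.p = -1 := by rw [bil_swap, b.h]

theorem Pair.p_ne : b.p ≠ 0 := by
  intro e
  have := b.h
  rw [e, map_zero, LinearMap.zero_apply] at this
  exact zero_ne_one this

theorem exists_pair (hm : 1 ≤ m) : Nonempty (Pair F m) := by
  obtain ⟨y, hy⟩ := exists_bil_eq_one (x := (Pi.single (Sum.inl ⟨0, hm⟩) 1 : V))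
    (by simp)
  exact ⟨⟨_, y, hy⟩⟩

/-- the orthogonal space of the pair -/
def sub : Submodule F V where
  carrier := {w | B w b.p = 0 ∧ B w b.p' = 0}
  add_mem' {x y} hx hy := by
    simp only [Set.mem_ofPred_eq] at *
    simp [map_add, hx.1, hx.2, hy.1, hy.2]
  zero_mem' := by simp
  smul_mem' c x hx := by
    simp only [Set.mem_ofPred_eq] at *
    simp [map_smul, hx.1, hx.2]

variable {b}

theorem bwp (w : sub b) : B (w : V) b.p = 0 := w.2.1
theorem bwp' (w : sub b) : B (w : V) b.p' = 0 := w.2.2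
theorem bpw (w : sub b) : B b.p (w : V) = 0 := by rw [bil_swap, bwp, neg_zero]
theorem bp'w (w : sub b) : B b.p' (w : V) = 0 := by rw [bil_swap, bwp', neg_zero]

variable (b)

/-- the decomposition along the pair -/
noncomputable def split : V ≃ F × F × sub b where
  toFun x := (B x b.p', B x b.p, ⟨x - B x b.p' • b.p + B x b.p • b.p', by
    constructor <;> simp [bil_self, b.h, b.h']⟩)
  invFun t := t.1 • b.p - t.2.1 • b.p' + t.2.2.1
  left_inv x := by simp
  right_inv t := by
    obtain ⟨a, c, w⟩ := t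
    have e1 : B (a • b.p - c • b.p' + (w : V)) b.p' = a := by simp [bil_self, b.h, bwp']
    have e2 : B (a • b.p - c • b.p' + (w : V)) b.p = c := by simp [bil_self, b.h', bwp]
    refine Prod.ext e1 (Prod.ext e2 (Subtype.ext ?_))
    simp only [e1, e2]
    abel

theorem card_sub [Fintype F] : Nat.card (sub b) * Fintype.card F ^ 2 = Fintype.card F ^ (2 * m) := by
  have h := Nat.card_congr (split b)
  rw [Nat.card_prod, Nat.card_prod, Nat.card_fun, Nat.card_eq_fintype_card (α := F),
    Nat.card_sum, Nat.card_fin, ← two_mul] at h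
  rw [h]; ring

/-- the elements of the radical -/
def qel (w : sub b) (s : F) : G := short (w : V) b.p 1 * tau b.p s

theorem app_qel (w : sub b) (s : F) (x : V) :
    app (qel b w s) x = x + B x (w : V) • b.p + B x b.p • (w : V) + (s * B x b.p) • b.p := by
  rw [qel, app_mul, app_tau, app_short (bwp w)]
  simp only [map_add, map_smul, LinearMap.add_apply, LinearMap.smul_apply, bil_self, bpw,
    smul_eq_mul, mul_zero, add_zero, one_mul]
  module

theorem qel_mul (w w' : sub b) (s s' : F) :
    qel b w s * qel b w' s' = qel b (w + w') (s + s' + B (w' : V) (w : V)) := by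
  refine sp_ext fun x => ?_
  rw [app_mul, app_qel, app_qel, app_qel]
  simp only [map_add, map_smul, LinearMap.add_apply, LinearMap.smul_apply, bil_self, bpw, bwp,
    Submodule.coe_add, smul_eq_mul, mul_zero, add_zero]
  module

theorem qel_zero : qel b 0 0 = 1 := sp_ext fun x => by simp [app_qel, app_one]

theorem qel_inv (w : sub b) (s : F) : (qel b w s)⁻¹ = qel b (-w) (-s) :=
  inv_eq_of_mul_eq_one_right (by rw [qel_mul]; simp [bil_self, qel_zero])

theorem qel_inj {w w' : sub b} {s s' : F} (h : qel b w s = qel b w' s') : w = w' ∧ s = s' := by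
  have e := congrArg (fun g => app g b.p') h
  simp only [app_qel, bp'w, b.h', zero_smul, add_zero, neg_smul, one_smul, mul_neg, mul_one] at e
  have e1 := congrArg (fun y => B y b.p') e
  simp [bwp', b.h, bil_self] at e1
  subst e1
  exact ⟨Subtype.ext (by simpa using e), rfl⟩

theorem qel_zero_left (s : F) : qel b 0 s = tau b.p s :=
  sp_ext fun x => by simp [app_qel, app_tau]

theorem qel_z_comm (e : F) (w : sub b) (s : F) :
    qel b 0 e * qel b w s = qel b w s * qel b 0 e := by
  rw [qel_mul, qel_mul]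
  simp [add_comm e s]

theorem qel_conj (a w : sub b) (r s : F) :
    (qel b a r)⁻¹ * qel b w s * qel b a r = qel b w (s + 2 * B (a : V) (w : V)) := by
  rw [qel_inv, qel_mul, qel_mul]
  congr 1
  · abel
  · simp only [map_add, map_neg, LinearMap.neg_apply, LinearMap.add_apply, Submodule.coe_add,
      Submodule.coe_neg, bil_self]
    rw [bil_swap (w : V) (a : V)]
    ring

/-- a short root element at `p` lies in the radical -/
theorem short_p_eq {a : V} (ha : B a b.p = 0) :
    ∃ (w : sub b) (s : F), short a b.p 1 = qel b w s ∧ (w : V) = a - B a b.p' • b.p := by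
  refine ⟨⟨a - B a b.p' • b.p, by constructor <;> simp [bil_self, ha, b.h]⟩, B a b.p' * 2, ?_, rfl⟩
  refine sp_ext fun x => ?_
  rw [app_short ha, app_qel]
  simp only [map_sub, map_smul, smul_eq_mul, one_mul]
  module

/-- the radical -/
def Q : Subgroup G where
  carrier := Set.range fun t : sub b × F => qel b t.1 t.2
  one_mem' := ⟨(0, 0), qel_zero b⟩
  mul_mem' := by
    rintro _ _ ⟨⟨w, s⟩, rfl⟩ ⟨⟨w', s'⟩, rfl⟩
    exact ⟨(_, _), (qel_mul b w w' s s').symm⟩
  inv_mem' := by
    rintro _ ⟨⟨w, s⟩, rfl⟩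
    exact ⟨(_, _), (qel_inv b w s).symm⟩

theorem mem_Q (w : sub b) (s : F) : qel b w s ∈ Q b := ⟨(w, s), rfl⟩

/-- coordinates of the radical -/
noncomputable def qEquiv : sub b × F ≃ Q b :=
  Equiv.ofBijective (fun t => ⟨qel b t.1 t.2, mem_Q b _ _⟩)
    ⟨fun s t h => Prod.ext (qel_inj b (congrArg Subtype.val h)).1
      (qel_inj b (congrArg Subtype.val h)).2,
    fun g => ⟨g.2.choose, Subtype.ext g.2.choose_spec⟩⟩

theorem card_Q [Fintype F] : Nat.card (Q b) = Nat.card (sub b) * Fintype.card F := by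
  rw [← Nat.card_congr (qEquiv b), Nat.card_prod, Nat.card_eq_fintype_card (α := F)]

/-- an element normalising the pair of lines -/
structure Lev where
  g : Matrix.symplecticGroup (Fin m) F
  l : F
  hl : l ≠ 0
  hp : app g b.p = l • b.p
  hp' : app g b.p' = l⁻¹ • b.p'

variable {b}

theorem app_add (g : G) (u v : V) : app g (u + v) = app g u + app g v := Matrix.mulVec_add _ _ _
theorem app_smul (g : G) (c : F) (v : V) : app g (c • v) = c • app g v := Matrix.mulVec_smul _ _ _

/-- the action of a normalising element on the orthogonal space -/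
def Lev.map (e : Lev b) : sub b →ₗ[F] sub b where
  toFun w := ⟨app e.g w, by
    constructor
    · have := sympBil_app e.g (w : V) b.p
      rw [e.hp, map_smul, smul_eq_mul, bwp] at this
      exact (mul_eq_zero.1 this).resolve_left e.hl
    · have := sympBil_app e.g (w : V) b.p'
      rw [e.hp', map_smul, smul_eq_mul, bwp'] at this
      exact (mul_eq_zero.1 this).resolve_left (inv_ne_zero e.hl)⟩
  map_add' u v := Subtype.ext (app_add _ _ _)
  map_smul' c v := Subtype.ext (app_smul _ _ _)

theorem Lev.bil_map (e : Lev b) (u w : sub b) :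
    B (e.map u : V) (e.map w : V) = B (u : V) (w : V) := sympBil_app e.g _ _

/-- the inverse -/
def Lev.inv (e : Lev b) : Lev b where
  g := e.g⁻¹
  l := e.l⁻¹
  hl := inv_ne_zero e.hl
  hp := by
    have h1 := app_inv_app e.g b.p
    rw [e.hp, app_smul] at h1
    exact (eq_inv_smul_iff₀ e.hl).2 h1
  hp' := by
    have h1 := app_inv_app e.g b.p'
    rw [e.hp', app_smul] at h1
    exact (eq_inv_smul_iff₀ (inv_ne_zero e.hl)).2 h1

theorem Lev.map_inv_map (e : Lev b) (w : sub b) : e.inv.map (e.map w) = w :=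
  Subtype.ext (app_inv_app e.g w)

theorem Lev.map_map_inv (e : Lev b) (w : sub b) : e.map (e.inv.map w) = w :=
  Subtype.ext (by
    show app e.g (app e.g⁻¹ (w : V)) = _
    rw [← app_mul, mul_inv_cancel, app_one])

theorem Lev.conj (e : Lev b) (w : sub b) (s : F) :
    e.g * qel b w s * e.g⁻¹ = qel b (e.l • e.map w) (e.l ^ 2 * s) := by
  refine sp_ext fun x => ?_
  obtain ⟨y, rfl⟩ : ∃ y, app e.g y = x := ⟨app e.g⁻¹ x, by rw [← app_mul, mul_inv_cancel, app_one]⟩
  have h1 : B (app e.g y) b.p = e.l⁻¹ * B y b.p := by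
    have := sympBil_app e.g y b.p
    rw [e.hp, map_smul, smul_eq_mul] at this
    rw [← this, ← mul_assoc, inv_mul_cancel₀ e.hl, one_mul]
  have h2 : B (app e.g y) (e.map w : V) = B y (w : V) := sympBil_app e.g y _
  rw [app_mul, app_mul, app_inv_app, app_qel, app_qel, app_add, app_add, app_add, app_smul,
    app_smul, app_smul, e.hp]
  simp only [Submodule.coe_smul, map_smul, smul_eq_mul, h1, h2]
  rw [show app e.g (w : V) = (e.map w : V) from rfl]
  match_scalars <;> field_simp [e.hl]

theorem Lev.conj_tau (e : Lev b) (v : sub b) (c : F) :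
    e.g * tau (v : V) c * e.g⁻¹ = tau (e.map v : V) c := tau_conj e.g _ c

/-- a transvection of the orthogonal space -/
def tauLev (v : sub b) (c : F) : Lev b where
  g := tau (v : V) c
  l := 1
  hl := one_ne_zero
  hp := by rw [app_tau, bpw]; simp
  hp' := by rw [app_tau, bp'w]; simp

theorem coe_tauLev_map (v w : sub b) (c : F) :
    ((tauLev v c).map w : V) = (w : V) + (c * B (w : V) (v : V)) • (v : V) := app_tau _ _ _

theorem exists_bil_sub {v : sub b} (hv : v ≠ 0) : ∃ w : sub b, B (v : V) (w : V) = 1 := by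
  obtain ⟨y, hy⟩ := exists_bil_eq_one (x := (v : V)) fun e => hv (Subtype.ext e)
  refine ⟨(split b y).2.2, ?_⟩
  simp [split, hy, bwp, bwp']

/-- hyperbolic pairs of the orthogonal space are equivalent -/
theorem exists_lev_pair {v w v' w' : sub b} (h : B (v : V) (w : V) = 1)
    (h' : B (v' : V) (w' : V) = 1) : ∃ e : Lev b, e.l = 1 ∧ e.map v = v' ∧ e.map w = w' := by
  obtain ⟨A, -, hA1, hA2, hA3⟩ := exists_mem_closure_map_pair (sub b) v.2 w.2 v'.2 w'.2
    (by rwa [← sympBil_apply]) (by rwa [← sympBil_apply])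
  refine ⟨⟨A, 1, one_ne_zero, ?_, ?_⟩, rfl, Subtype.ext hA1, Subtype.ext hA2⟩
  · rw [one_smul]; exact hA3 _ fun y hy => by rw [← sympBil_apply]; exact bpw ⟨y, hy⟩
  · rw [inv_one, one_smul]; exact hA3 _ fun y hy => by rw [← sympBil_apply]; exact bp'w ⟨y, hy⟩

theorem exists_lev_map {v v' : sub b} (hv : v ≠ 0) (hv' : v' ≠ 0) :
    ∃ e : Lev b, e.l = 1 ∧ e.map v = v' := by
  obtain ⟨w, hw⟩ := exists_bil_sub hv
  obtain ⟨w', hw'⟩ := exists_bil_sub hv'
  obtain ⟨e, h1, h2, -⟩ := exists_lev_pair hw hw'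
  exact ⟨e, h1, h2⟩

variable (b)

/-- the torus -/
theorem exists_torus {l : F} (hl : l ≠ 0) : ∃ e : Lev b, e.l = l ∧ ∀ w, e.map w = w := by
  let P : Submodule F V := Submodule.span F {b.p, b.p'}
  have hp : b.p ∈ P := Submodule.subset_span (by simp)
  have hp' : b.p' ∈ P := Submodule.subset_span (by simp)
  obtain ⟨A, -, hA1, hA2, hA3⟩ := exists_mem_closure_map_pair P hp hp'
    (P.smul_mem l hp) (P.smul_mem l⁻¹ hp') (by rw [← sympBil_apply]; exact b.h)
    (by rw [← sympBil_apply]; simp [b.h, hl])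
  refine ⟨⟨A, l, hl, hA1, hA2⟩, rfl, fun w => Subtype.ext (hA3 _ fun y hy => ?_)⟩
  rw [← sympBil_apply]
  obtain ⟨a, c, rfl⟩ := Submodule.mem_span_pair.1 hy
  simp [bwp, bwp']

/-- the involution of the orthogonal space -/
theorem exists_neg : ∃ e : Lev b, e.l = 1 ∧ ∀ w, e.map w = -w := by
  obtain ⟨e, he, hw⟩ := exists_torus b (l := (-1 : F)) (by simp)
  let c : G := ⟨(-1 : F) • 1, scalar_mem (by ring)⟩
  have hc : ∀ x : V, app c x = -x := fun x => by simp [app, c, Matrix.neg_mulVec]
  refine ⟨⟨c * e.g, 1, one_ne_zero, ?_, ?_⟩, rfl, fun w => Subtype.ext ?_⟩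
  · rw [app_mul, e.hp, hc, he]; simp
  · rw [app_mul, e.hp', hc, he]; simp [inv_neg]
  · show app (c * e.g) (w : V) = _
    rw [app_mul, hc, show app e.g (w : V) = (e.map w : V) from rfl, hw]
    rfl

end Cfsg.Agent.MinSp
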