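import Cfsg.Agent.MinSp.Cases

/-!
The least degree of a nontrivial action of the symplectic group over two elements.
-/

set_option autoImplicit false
set_option linter.unusedSectionVars false

namespace Cfsg.Agent.MinSp

open Cfsg.Agent.Forms Cfsg.Agent.Linear.Symp
open scoped Matrix Classical

variable {F : Type*} [Field F] [Fintype F] {m : ℕ}

theorem two_eq_zero (hF : Fintype.card F = 2) : (2 : F) = 0 := by
  have := FiniteField.cast_card_eq_zero F
  rw [hF] at this
  exact_mod_cast this

theorem zero_or_one (hF : Fintype.card F = 2) (a : F) : a = 0 ∨ a = 1 := by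
  have h : ({0, 1} : Finset F) = Finset.univ :=
    Finset.eq_univ_of_card _ (by rw [Finset.card_pair zero_ne_one, hF])
  have := Finset.mem_univ a
  rw [← h] at this
  simpa using this

/-- the sign of a field element -/
noncomputable def sgn (a : F) : ℤ := if a = 0 then 1 else -1

theorem sgn_add (hF : Fintype.card F = 2) (a c : F) : sgn (a + c) = sgn a * sgn c := by
  have h11 : (1 : F) + 1 = 0 := by rw [← two_eq_zero hF]; norm_num
  rcases zero_or_one hF a with rfl | rfl <;> rcases zero_or_one hF c with rfl | rfl <;>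
    simp [sgn, h11]

theorem sgn_sq (a : F) : sgn a * sgn a = 1 := by unfold sgn; split_ifs <;> norm_num

/-- the sign sum of a nondegenerate quadratic map -/
theorem gauss {W : Type*} [AddCommGroup W] [Fintype W] (hF : Fintype.card F = 2)
    (σ : W → F) (β : W → W → F) (hσ : ∀ x y, σ (x + y) = σ x + σ y + β x y)
    (hβ : ∀ x y y', β x (y + y') = β x y + β x y') (hsymm : ∀ x y, β x y = β y x)
    (hnd : ∀ x, x ≠ 0 → ∃ y, β x y = 1) :
    (∑ x, sgn (σ x)) ^ 2 = (Fintype.card W : ℤ) ∧
      2 * ((Finset.univ.filter fun x => σ x = 0).card : ℤ) =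
        Fintype.card W + ∑ x, sgn (σ x) := by
  constructor
  · have hadd : ∀ x, β x 0 = 0 := fun x => by
      have := hβ x 0 0
      rw [add_zero] at this
      exact left_eq_add.1 this
    rw [sq, Finset.mul_sum]
    calc ∑ y, (∑ x, sgn (σ x)) * sgn (σ y) = ∑ x, ∑ y, sgn (σ x) * sgn (σ y) := by
          rw [Finset.sum_comm]
          simp only [Finset.sum_mul]
      _ = ∑ x, ∑ w, sgn (σ w) * sgn (β x w) := by
          refine Finset.sum_congr rfl fun x _ => ?_
          rw [← Equiv.sum_comp (Equiv.addLeft x)]
          refine Finset.sum_congr rfl fun w _ => ?_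
          simp only [Equiv.coe_addLeft, hσ, sgn_add hF, ← mul_assoc, sgn_sq, one_mul]
      _ = ∑ w, sgn (σ w) * ∑ x, sgn (β w x) := by
          rw [Finset.sum_comm]
          simp only [Finset.mul_sum, hsymm]
      _ = _ := by
          rw [Finset.sum_eq_single 0 (fun w _ hw => ?_) (fun h => absurd (Finset.mem_univ _) h)]
          · have h0 : σ 0 = 0 := by
              have := hσ 0 0
              rw [add_zero, hadd, add_zero] at this
              exact left_eq_add.1 this
            simp only [h0, hsymm 0, hadd, sgn, if_true, Finset.sum_const, Finset.card_univ]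
            simp
          · obtain ⟨y, hy⟩ := hnd w hw
            have : ∑ x, sgn (β w x) = -∑ x, sgn (β w x) := by
              conv_lhs => rw [← Equiv.sum_comp (Equiv.addRight y)]
              rw [← Finset.sum_neg_distrib]
              refine Finset.sum_congr rfl fun x _ => ?_
              rw [Equiv.coe_addRight, hβ, hy, sgn_add hF]
              simp [sgn]
            rw [show ∑ x, sgn (β w x) = 0 by omega, mul_zero]
  · have : ∀ x, (1 : ℤ) + sgn (σ x) = if σ x = 0 then 2 else 0 := fun x => by
      unfold sgn; split_ifs <;> norm_num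
    rw [← Finset.card_univ, Finset.card_eq_sum_ones Finset.univ]
    push_cast
    rw [← Finset.sum_add_distrib, Finset.sum_congr rfl fun x _ => this x, ← Finset.sum_filter,
      Finset.sum_const, nsmul_eq_mul, mul_comm]

variable {X : Type*} [MulAction (Matrix.symplecticGroup (Fin m) F) X] [Fintype X]

local notation "V" => (Fin m ⊕ Fin m → F)
local notation "G" => Matrix.symplecticGroup (Fin m) F
local notation "B" => sympBil m F

variable {b : Pair F m}

theorem pair_symm (hF : Fintype.card F = 2) (v w : sub b) : pair b v w = pair b w v := by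
  show B (w : V) (v : V) = B (v : V) (w : V)
  rw [bil_swap]
  linear_combination -(B (v : V) (w : V)) * two_eq_zero hF

/-- the quadratic map of a two-point orbit -/
theorem exists_sigma {x : X} (hZ : Z0 b x = ⊥) (hU : U b x = ⊤) :
    ∃ σ : sub b → F, (∀ w s, qel b w s • x = x ↔ s = σ w) ∧
      ∀ w w', σ (w + w') = σ w + σ w' + pair b w w' := by
  choose σ hσ using fun w : sub b => (show w ∈ U b x by rw [hU]; trivial)
  have huniq : ∀ w s, qel b w s • x = x → s = σ w := fun w s h => by
    have := qel_sub h (hσ w)
    rw [hZ, AddSubgroup.mem_bot, sub_eq_zero] at this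
    exact this
  refine ⟨σ, fun w s => ⟨huniq w s, fun h => h ▸ hσ w⟩, fun w w' => (huniq _ _ ?_).symm⟩
  rw [show pair b w w' = B (w' : V) (w : V) from rfl, ← qel_mul, mul_smul, hσ, hσ]

theorem moved_bound (hF : Fintype.card F = 2) (hm : 2 ≤ m)
    (hL : layer X b (⊥ : AddSubgroup F) = ∅) {x : X} (hx : Z0 b x ≠ ⊤) :
    Nat.card (sub b) ≤
      (Finset.univ.filter fun y : X => Z0 b y ≠ ⊤).card + 2 ^ (m - 1) := by
  let _ : Fintype (sub b) := Fintype.ofFinite _
  have h2 := two_eq_zero hF
  have hbot : ∀ y : X, Z0 b y ≠ ⊤ → Z0 b y = ⊥ ∧ U b y = ⊤ := fun y hy => by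
    have h1 := card_Z0_lt hy
    rw [hF] at h1
    have hb : Z0 b y = ⊥ := (Z0 b y).eq_bot_of_card_eq (le_antisymm (by omega) Nat.card_pos)
    refine ⟨hb, ?_⟩
    by_contra hU
    have : y ∈ layer X b (⊥ : AddSubgroup F) := mem_layer.2 ⟨hb, hU⟩
    rw [hL] at this
    simp at this
  obtain ⟨hxb, hxU⟩ := hbot x hx
  obtain ⟨σ, hfix, hσ⟩ := exists_sigma hxb hxU
  obtain ⟨hS, hZ⟩ := gauss hF σ (fun w w' => pair b w w') hσ (fun _ _ _ => map_add _ _ _)
    (pair_symm hF) (fun w hw => by
      obtain ⟨u, hu⟩ := exists_bil_sub hw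
      exact ⟨u, (pair_symm hF w u).trans hu⟩)
  set S := ∑ w, sgn (σ w)
  set N0 := Finset.univ.filter fun w => σ w = 0
  have hcard : Fintype.card (sub b) = (2 ^ (m - 1)) * (2 ^ (m - 1)) := by
    rw [← Nat.card_eq_fintype_card, card_sub', hF, ← pow_add]; congr 1; omega
  have hS' : -((2 : ℤ) ^ (m - 1)) ≤ S := by
    refine (abs_le.1 (abs_le_of_sq_le_sq ?_ (by positivity))).1
    rw [hS, hcard]; push_cast; ring_nf; rfl
  have hsq : ∀ v w : sub b, (tauLev v 1).map ((tauLev v 1).map w) = w := fun v w => by
    rw [tauLev_map_eq, tauLev_map_eq, map_add, show pair b v ((1 * pair b v w) • v) =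
      1 * pair b v w * pair b v v by simp [pair], show pair b v v = 0 from bil_self _, mul_zero,
      add_zero, add_assoc, ← add_smul, show (1 : F) * pair b v w + 1 * pair b v w = 0 by
        linear_combination pair b v w * h2, zero_smul, add_zero]
  have hmove : ∀ v ∈ N0, ∀ (e : F) w, qel b w (σ w + pair b v w) •
      (qel b 0 e • tau (v : V) 1 • x) = qel b 0 e • tau (v : V) 1 • x := by
    intro v hv e w
    have h1 : σ ((tauLev v 1).map w) = σ w + pair b v w := by
      rw [tauLev_map_eq, hσ, one_mul]
      have hv0 : σ v = 0 := (Finset.mem_filter.1 hv).2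
      rcases zero_or_one hF (pair b v w) with h | h
      · have h0 : σ 0 = 0 := by
          have := hσ 0 0
          simpa using this
        rw [h, zero_smul, h0, map_zero]
        ring
      · rw [h, one_smul, hv0, add_zero, pair_symm hF w v, h]
    rw [← mul_smul (qel b w _), ← qel_z_comm, mul_smul, ← mul_smul (qel b w _)]
    congr 1
    have h3 := (hfix ((tauLev v 1).map w) (σ w + pair b v w)).2 h1.symm
    have e3 := tau_mul_qel v ((tauLev v 1).map w) 1 (σ w + pair b v w)
    rw [hsq] at e3
    rw [← e3, mul_smul, h3]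
  have hout : ∀ v : sub b, ∀ e : F, Z0 b (qel b 0 e • tau (v : V) 1 • x) ≠ ⊤ := fun v e => by
    rw [Z0_smul (mem_Q b _ _)]
    have := (tauLev v 1).Z0_eq (one_pow 2) x
    rw [show (tauLev v 1).g = tau (v : V) 1 from rfl] at this
    rw [this]; exact hx
  have hinj : 2 * N0.card ≤ (Finset.univ.filter fun y : X => Z0 b y ≠ ⊤).card := by
    rw [mul_comm, ← hF, ← Finset.card_univ, ← Finset.card_product]
    refine Finset.card_le_card_of_injOn (fun t => qel b 0 t.2 • tau (t.1 : V) 1 • x)
      (fun t _ => Finset.mem_coe.2 (Finset.mem_filter.2 ⟨Finset.mem_univ _, hout _ _⟩))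
      fun t ht t' ht' h => ?_
    simp only [Finset.mem_coe, Finset.mem_product, Finset.mem_univ, and_true] at ht ht'
    have hv : t.1 = t'.1 := by
      by_contra hne
      obtain ⟨w, hw⟩ := exists_bil_sub (sub_ne_zero.2 hne)
      have h1 := hmove _ ht t.2 w
      have h3 := hmove _ ht' t'.2 w
      rw [show qel b 0 t'.2 • tau (t'.1 : V) 1 • x = qel b 0 t.2 • tau (t.1 : V) 1 • x from h.symm]
        at h3
      have h4 := qel_sub h1 h3
      rw [(hbot _ (hout t.1 t.2)).1, AddSubgroup.mem_bot, add_sub_add_left_eq_sub, sub_eq_zero] at h4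
      rw [pair_symm hF t.1, pair_symm hF t'.1] at h4
      have h5 : pair b w (t.1 - t'.1) = 1 := hw
      rw [map_sub, h4, sub_self] at h5
      exact zero_ne_one h5
    refine Prod.ext hv ?_
    simp only [hv] at h
    have h4 : (t.2 - t'.2) ∈ Z0 b (tau (t'.1 : V) 1 • x) := by
      show qel b 0 _ • _ = _
      rw [sub_eq_neg_add, z_add, mul_smul, h, ← mul_smul, ← z_add, neg_add_cancel, qel_zero,
        one_smul]
    have h6 := (tauLev t'.1 1).Z0_eq (one_pow 2) x
    rw [show (tauLev t'.1 1).g = tau (t'.1 : V) 1 from rfl] at h6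
    rwa [h6, hxb, AddSubgroup.mem_bot, sub_eq_zero] at h4
  rw [Nat.card_eq_fintype_card, hcard]
  rw [hcard] at hZ
  push_cast at hZ hS'
  zify
  nlinarith

theorem fixed_layer_ne (hF : Fintype.card F = 2) (hm : 3 ≤ m)
    (hL : layer X b (⊥ : AddSubgroup F) = ∅) {x0 : X} (hx0 : Z0 b x0 ≠ ⊤) :
    (layer X b (⊤ : AddSubgroup F)).Nonempty := by
  by_contra hT
  rw [Finset.not_nonempty_iff_eq_empty] at hT
  let _ : Fintype (sub b) := Fintype.ofFinite _
  have h2 := two_eq_zero hF
  set D := Fintype.card (sub b) with hD
  let nz : Finset (sub b) := Finset.univ.filter fun v => v ≠ 0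
  let P : Finset (sub b × sub b) :=
    (nz ×ˢ nz).filter fun t => t.1 ≠ t.2 ∧ pair b t.1 t.2 = 0
  obtain ⟨v0, hv0⟩ : ∃ v : sub b, v ≠ 0 := by
    have := one_lt_card_sub b (show 2 ≤ m by omega)
    rw [Nat.card_eq_fintype_card, Fintype.one_lt_card_iff] at this
    obtain ⟨u, w, huw⟩ := this
    rcases eq_or_ne u 0 with rfl | hu
    · exact ⟨w, huw.symm⟩
    · exact ⟨u, hu⟩
  set φ := fixN X (tau b.p (1 : F) * tau (v0 : V) 1) with hφ
  have hne : ∀ {v : sub b}, v ≠ 0 → (v : V) ≠ 0 := fun hv e => hv (Subtype.ext e)
  -- the number of orthogonal vectors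
  have hperp : ∀ v : sub b, v ≠ 0 → 2 * (Finset.univ.filter fun u => pair b v u = 0).card = D := by
    intro v hv
    have := card_pair_fiber hv ({0} : Finset F)
    rw [Finset.card_singleton, one_mul, Nat.card_eq_fintype_card, hF] at this
    simpa using this
  have hP : 2 * P.card = (D - 1) * (D - 4) := by
    have e : P.card = ∑ a ∈ nz, (((Finset.univ.filter fun u => pair b a u = 0).erase 0).erase a).card := by
      rw [← Finset.card_sigma]
      refine Finset.card_bij (fun t _ => ⟨t.1, t.2⟩) (fun t ht => ?_) (fun t _ t' _ h => ?_)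
        fun t ht => ?_
      · simp only [P, nz, Finset.mem_filter, Finset.mem_product, Finset.mem_univ, true_and,
          Finset.mem_sigma, Finset.mem_erase] at ht ⊢
        exact ⟨ht.1.1, ht.2.1.symm, ht.1.2, ht.2.2⟩
      · simp only [Sigma.mk.injEq, heq_eq_eq] at h; exact Prod.ext h.1 h.2
      · simp only [nz, Finset.mem_filter, Finset.mem_univ, true_and, Finset.mem_sigma,
          Finset.mem_erase] at ht
        exact ⟨(t.1, t.2), by simp [P, nz, ht.1, ht.2.2.1, ht.2.2.2, Ne.symm ht.2.1], rfl⟩
    rw [e, Finset.mul_sum, Finset.sum_congr rfl fun a ha => ?_, Finset.sum_const, smul_eq_mul,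
      card_ne_zero_sub, Nat.card_eq_fintype_card]
    have ha' := (Finset.mem_filter.1 ha).2
    have hp := hperp a ha'
    rw [Finset.card_erase_of_mem (by simp [ha', show pair b a a = 0 from bil_self _]),
      Finset.card_erase_of_mem (by simp)]
    omega
  have hD4 : 16 ≤ D := by
    rw [hD, ← Nat.card_eq_fintype_card, card_sub', hF]
    calc 16 = 2 ^ 4 := by norm_num
      _ ≤ _ := Nat.pow_le_pow_right (by norm_num) (by omega)
  let hP' : X → ℕ := fun y => 2 * (P.filter fun t => (tau (t.1 : V) 1 * tau (t.2 : V) 1) • y = y).card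
  let g : X → ℕ := fun y => (D - 4) * (nz.filter fun w => qel b w 1 • y = y).card
  have hid : ∑ y, hP' y = ∑ y, g y := by
    simp only [hP', g, ← Finset.mul_sum]
    rw [← sum_fixN (X := X), ← sum_fixN (X := X)]
    have hPφ : ∀ t ∈ P, fixN X (tau (t.1 : V) 1 * tau (t.2 : V) 1) = φ := by
      intro t ht
      obtain ⟨ht1, ht2, ht3⟩ : t ∈ nz ×ˢ nz ∧ t.1 ≠ t.2 ∧ pair b t.1 t.2 = 0 :=
        Finset.mem_filter.1 ht
      obtain ⟨ha, hc⟩ := Finset.mem_product.1 ht1
      refine fixN_two h2 ?_ (hne (Finset.mem_filter.1 ha).2) (fun s e => ?_) one_ne_zero one_ne_zero hv0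
      · rw [pair_symm hF] at ht3; exact ht3
      · rcases zero_or_one hF s with rfl | rfl
        · exact hne (Finset.mem_filter.1 hc).2 (by simpa using e)
        · exact ht2 (Subtype.ext (by simpa using e.symm))
    have hQφ : ∀ w ∈ nz, fixN X (qel b w 1) = φ := by
      intro w hw
      rw [qel_eq_two h2 w one_ne_zero, inv_one, one_smul]
      refine fixN_two h2 (by simp [bil_self, bpw]) (fun e => ?_) (fun t e => ?_) one_ne_zero
        one_ne_zero hv0
      · have := congrArg (fun z => B z b.p') e
        simp [bwp', b.h] at this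
      · have := congrArg (fun z => B z b.p') e
        simp [bwp', b.h] at this
        subst this
        exact hne (Finset.mem_filter.1 hw).2 (by simpa using e)
    rw [Finset.sum_congr rfl hPφ, Finset.sum_congr rfl hQφ]
    simp only [Finset.sum_const, smul_eq_mul]
    rw [card_ne_zero_sub, Nat.card_eq_fintype_card, ← mul_assoc, hP]
    ring
  have key : ∀ y : X, hP' y ≤ g y ∧ (Z0 b y ≠ ⊤ → hP' y < g y) := by
    intro y
    by_cases hy : Z0 b y = ⊤
    · refine ⟨?_, fun h => absurd hy h⟩
      have hU : U b y = ⊤ := by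
        by_contra hU
        have : y ∈ layer X b (⊤ : AddSubgroup F) := mem_layer.2 ⟨hy, hU⟩
        rw [hT] at this
        simp at this
      have e : (nz.filter fun w => qel b w 1 • y = y) = nz :=
        Finset.filter_true_of_mem fun w _ => fixed_top hy hU w 1
      simp only [g, hP', e]
      refine le_trans (Nat.mul_le_mul_left 2 (Finset.card_filter_le _ _)) (le_of_eq ?_)
      rw [hP, card_ne_zero_sub, Nat.card_eq_fintype_card, mul_comm]
    suffices hP' y < g y from ⟨this.le, fun _ => this⟩
    have h1 := card_Z0_lt hy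
    rw [hF] at h1
    have hyb : Z0 b y = ⊥ := (Z0 b y).eq_bot_of_card_eq (le_antisymm (by omega) Nat.card_pos)
    have hyU : U b y = ⊤ := by
      by_contra hU
      have : y ∈ layer X b (⊥ : AddSubgroup F) := mem_layer.2 ⟨hyb, hU⟩
      rw [hL] at this
      simp at this
    obtain ⟨σ, hfix, hσ⟩ := exists_sigma hyb hyU
    have h0 : σ 0 = 0 := by
      have := hσ 0 0
      simpa using this
    set T := nz.filter fun w => qel b w 1 • y = y with hTdef
    have hT1 : ∀ w, w ∈ T ↔ σ w = 1 := fun w => by
      simp only [hTdef, nz, Finset.mem_filter, Finset.mem_univ, true_and, hfix]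
      refine ⟨fun h => h.2.symm, fun h => ⟨fun h' => ?_, h.symm⟩⟩
      rw [h', h0] at h
      exact zero_ne_one h
    have hTne : T.Nonempty := by
      by_contra hne'
      rw [Finset.not_nonempty_iff_eq_empty] at hne'
      have hzero : ∀ w, σ w = 0 := fun w => (zero_or_one hF _).resolve_right fun h => by
        have := (hT1 w).2 h
        rw [hne'] at this
        simp at this
      obtain ⟨u, hu⟩ := exists_bil_sub hv0
      have := hσ u v0
      rw [hzero, hzero, hzero, show pair b u v0 = B (v0 : V) (u : V) from rfl, hu] at this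
      simp at this
    have hsplit : ∀ t ∈ P.filter (fun t => (tau (t.1 : V) 1 * tau (t.2 : V) 1) • y = y),
        t.1 ∈ T ∧ t.2 ∈ T ∧ t.1 ≠ t.2 ∧ pair b t.1 t.2 = 0 := by
      intro t ht
      obtain ⟨htP, hty⟩ := Finset.mem_filter.1 ht
      obtain ⟨ht1, ht2, ht3⟩ : t ∈ nz ×ˢ nz ∧ t.1 ≠ t.2 ∧ pair b t.1 t.2 = 0 :=
        Finset.mem_filter.1 htP
      obtain ⟨ha, hc⟩ := Finset.mem_product.1 ht1
      -- the product preserves the quadratic map
      have hpres : ∀ w, σ ((tauLev t.1 1).map ((tauLev t.2 1).map w)) = σ w := by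
        intro w
        refine ((hfix _ _).1 ?_).symm
        conv_lhs => rw [← hty, ← mul_smul, ← mul_assoc]
        conv_rhs => rw [← hty]
        rw [← tau_mul_qel, mul_assoc, ← tau_mul_qel, ← mul_assoc, mul_smul, (hfix _ _).2 rfl]
      have one : ∀ {a c : sub b}, a ≠ 0 → (∀ t : F, c ≠ t • a) → pair b a c = 0 →
          (∀ w, σ (w + pair b a w • a + pair b c w • c) = σ w) → σ a = 1 := by
        intro a c ha hind hac h
        obtain ⟨w, hw1, hw2⟩ := exists_dual ha hind
        have := h w
        rw [hw2, hw1, one_smul, zero_smul, add_zero, hσ, pair_symm hF w a, hw2] at this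
        linear_combination this - h2
      have hexp : ∀ w, (tauLev t.1 1).map ((tauLev t.2 1).map w) =
          w + pair b t.1 w • t.1 + pair b t.2 w • t.2 := by
        intro w
        rw [tauLev_map_eq t.1, tauLev_map_eq t.2, map_add,
          show pair b t.1 ((1 * pair b t.2 w) • t.2) = 1 * pair b t.2 w * pair b t.1 t.2 by
            simp [pair],
          ht3, mul_zero, add_zero, one_mul, one_mul]
        abel
      have hind1 : ∀ s : F, t.2 ≠ s • t.1 := fun s e => by
        rcases zero_or_one hF s with rfl | rfl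
        · exact (Finset.mem_filter.1 hc).2 (by simpa using e)
        · exact ht2 (by simpa using e.symm)
      have hind2 : ∀ s : F, t.1 ≠ s • t.2 := fun s e => by
        rcases zero_or_one hF s with rfl | rfl
        · exact (Finset.mem_filter.1 ha).2 (by simpa using e)
        · exact ht2 (by simpa using e)
      refine ⟨(hT1 _).2 (one (Finset.mem_filter.1 ha).2 hind1 ht3 fun w => ?_),
        (hT1 _).2 (one (Finset.mem_filter.1 hc).2 hind2 (by rw [pair_symm hF]; exact ht3) fun w => ?_),
        ht2, ht3⟩
      · rw [← hexp, hpres]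
      · rw [add_right_comm, ← hexp, hpres]
    have hle : 2 * (P.filter fun t => (tau (t.1 : V) 1 * tau (t.2 : V) 1) • y = y).card ≤
        T.card * (D / 2 - 2) := by
      calc 2 * _ ≤ 2 * ∑ a ∈ T, ((T.erase a).filter fun c => pair b a c = 0).card := by
            refine Nat.mul_le_mul_left 2 ?_
            rw [← Finset.card_sigma]
            refine Finset.card_le_card_of_injOn (fun t => ⟨t.1, t.2⟩) (fun t ht => ?_)
              fun t _ t' _ h => ?_
            · obtain ⟨h1, h3, h4, h5⟩ := hsplit t ht
              simp only [Finset.mem_coe, Finset.mem_sigma, Finset.mem_filter, Finset.mem_erase]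
              exact ⟨h1, ⟨h4.symm, h3⟩, h5⟩
            · simp only [Sigma.mk.injEq, heq_eq_eq] at h; exact Prod.ext h.1 h.2
        _ ≤ ∑ _a ∈ T, (D / 2 - 2) := by
            rw [Finset.mul_sum]
            refine Finset.sum_le_sum fun a ha => ?_
            have ha1 := (hT1 a).1 ha
            have ha0 : a ≠ 0 := fun h => by rw [h, h0] at ha1; exact zero_ne_one ha1
            set R := (T.erase a).filter fun c => pair b a c = 0
            have hdis : Disjoint R (R.image fun c => c + a) := by
              rw [Finset.disjoint_left]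
              intro c hc hc'
              obtain ⟨d, hd, rfl⟩ := Finset.mem_image.1 hc'
              have h1 := (hT1 _).1 (Finset.mem_of_mem_erase (Finset.mem_filter.1 hc).1)
              rw [hσ, (hT1 _).1 (Finset.mem_of_mem_erase (Finset.mem_filter.1 hd).1), ha1,
                pair_symm hF, (Finset.mem_filter.1 hd).2] at h1
              exact one_ne_zero (by linear_combination h1 : (1 : F) = 0)
            have hsub : R ∪ R.image (fun c => c + a) ⊆
                ((Finset.univ.filter fun u => pair b a u = 0).erase 0).erase a := by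
              intro c hc
              simp only [Finset.mem_erase, Finset.mem_filter, Finset.mem_univ, true_and]
              rcases Finset.mem_union.1 hc with h | h
              · obtain ⟨h1, h3⟩ := Finset.mem_filter.1 h
                refine ⟨Finset.ne_of_mem_erase h1, fun h' => ?_, h3⟩
                have := (hT1 _).1 (Finset.mem_of_mem_erase h1)
                rw [h', h0] at this
                exact zero_ne_one this
              · obtain ⟨d, hd, rfl⟩ := Finset.mem_image.1 h
                obtain ⟨h1, h3⟩ := Finset.mem_filter.1 hd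
                refine ⟨fun h' => ?_, fun h' => ?_, ?_⟩
                · rw [add_eq_right] at h'
                  have := (hT1 _).1 (Finset.mem_of_mem_erase h1)
                  rw [h', h0] at this
                  exact zero_ne_one this
                · refine Finset.ne_of_mem_erase h1 ?_
                  have e : d + a + a = d := by
                    rw [add_assoc, show a + a = (2 : F) • a by rw [two_smul], h2, zero_smul, add_zero]
                  rw [← e, h', zero_add]
                · rw [map_add, h3, show pair b a a = 0 from bil_self _, add_zero]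
            have := Finset.card_le_card hsub
            rw [Finset.card_union_of_disjoint hdis,
              Finset.card_image_of_injective _ (add_left_injective a),
              Finset.card_erase_of_mem (by simp [ha0, show pair b a a = 0 from bil_self _]),
              Finset.card_erase_of_mem (by simp)] at this
            have := hperp a ha0
            omega
        _ = _ := by rw [Finset.sum_const, smul_eq_mul]
    show 2 * _ < (D - 4) * T.card
    refine lt_of_le_of_lt hle ?_
    rw [mul_comm]
    exact Nat.mul_lt_mul_of_pos_right (by omega) hTne.card_pos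
  have : ∑ y, hP' y < ∑ y, g y :=
    Finset.sum_lt_sum (fun y _ => (key y).1) ⟨x0, Finset.mem_univ _, (key x0).2 hx0⟩
  omega

/-- the least degree -/
theorem bound_two (hF : Fintype.card F = 2) (hm : 3 ≤ m)
    (htr : ∃ (g : Matrix.symplecticGroup (Fin m) F) (x : X), g • x ≠ x) :
    2 ^ (m - 1) * (2 ^ m - 1) ≤ Fintype.card X := by
  obtain ⟨b⟩ := exists_pair (F := F) (m := m) (by omega)
  let _ : Fintype (sub b) := Fintype.ofFinite _
  obtain ⟨x0, hx0⟩ := exists_Z0_ne_top (b := b) htr
  set u := 2 ^ (m - 1) with hu
  have hD : Nat.card (sub b) = u * u := by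
    rw [card_sub', hF, hu, ← pow_add]; congr 1; omega
  have hum : 2 ^ m = 2 * u := by rw [hu, ← pow_succ']; congr 1; omega
  rw [hum, Nat.mul_sub_one, show u * (2 * u) = 2 * (u * u) by ring, ← hD]
  set D := Nat.card (sub b) with hD'
  by_cases hL : layer X b (⊥ : AddSubgroup F) = ∅
  swap
  · obtain ⟨c, hc, -, hn, hcard⟩ := exists_cnt (show 2 ≤ m by omega) (Finset.nonempty_iff_ne_empty.2 hL)
    rw [AddSubgroup.card_bot, one_mul, hF] at hcard
    have := Finset.card_le_univ (layer X b (⊥ : AddSubgroup F))
    have h1 := Nat.mul_le_mul_left (D - 1) hc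
    rw [mul_one] at h1
    rw [← hD'] at hcard
    omega
  have hmoved := moved_bound hF (by omega) hL hx0
  have hT := fixed_layer_ne hF hm hL hx0
  obtain ⟨c, hc, -, hn, hcard⟩ := exists_cnt (show 2 ≤ m by omega) hT
  rw [AddSubgroup.card_top, Nat.card_eq_fintype_card (α := F), hF] at hcard
  have hdis : (layer X b (⊤ : AddSubgroup F)).card +
      (Finset.univ.filter fun y : X => Z0 b y ≠ ⊤).card ≤ Fintype.card X := by
    rw [← Finset.card_union_of_disjoint (Finset.disjoint_left.2 fun y h h' =>
      absurd (mem_layer.1 h).1 (Finset.mem_filter.1 h').2)]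
    exact Finset.card_le_univ _
  have h1 := Nat.mul_le_mul_left (D - 1) hc
  rw [mul_one] at h1
  rw [← hD'] at hcard
  omega

end Cfsg.Agent.MinSp
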