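import Cfsg.Agent.MinSp.Two

/-!
The stabiliser of a quadratic map of minus type over two elements.
-/

set_option autoImplicit false
set_option linter.unusedSectionVars false

namespace Cfsg.Agent.MinSp

open Cfsg.Agent.Forms Cfsg.Agent.Linear.Symp
open scoped Matrix Classical

variable {F : Type*} [Field F] [Fintype F] {m : ℕ}

local notation "V" => (Fin m ⊕ Fin m → F)
local notation "G" => Matrix.symplecticGroup (Fin m) F
local notation "B" => sympBil m F

theorem exists_minus_form (hF : Fintype.card F = 2) (hm : 1 ≤ m) :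
    ∃ R : (Fin m ⊕ Fin m → F) → F, (∀ x y, R (x + y) = R x + R y + B x y) ∧
      (Finset.univ.filter fun x => R x = 0).card = 2 ^ (m - 1) * (2 ^ m - 1) := by
  have h2 := two_eq_zero hF
  have hneg : ∀ a : F, -a = a := fun a => by linear_combination (-a) * h2
  let Q0 : V → F := fun x => ∑ i, x (.inl i) * x (.inr i)
  have hQ0 : ∀ x y, Q0 (x + y) = Q0 x + Q0 y + B x y := by
    intro x y
    simp only [Q0, sympBil_apply, sympForm_apply, ← Finset.sum_add_distrib, Pi.add_apply]
    refine Finset.sum_congr rfl fun i _ => ?_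
    linear_combination (x (.inl i) * y (.inr i)) * h2
  have hsymm : ∀ x y : V, B x y = B y x := fun x y => by rw [bil_swap, hneg]
  have hg : ∀ R : V → F, (∀ x y, R (x + y) = R x + R y + B x y) →
      (∑ x, sgn (R x)) ^ 2 = (Fintype.card V : ℤ) ∧
      2 * ((Finset.univ.filter fun x => R x = 0).card : ℤ) = Fintype.card V + ∑ x, sgn (R x) :=
    fun R hR => gauss hF R (fun x y => B x y) hR (fun x y y' => map_add _ y y') hsymm
      fun x hx => exists_bil_eq_one hx
  set u := 2 ^ (m - 1) with hu
  have hum : 2 ^ m = 2 * u := by rw [hu, ← pow_succ']; congr 1; omega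
  have hV : Fintype.card V = (2 * u) * (2 * u) := by
    rw [Fintype.card_fun, Fintype.card_sum, Fintype.card_fin, hF, ← hum, pow_add]
  have minus : ∀ R : V → F, (∀ x y, R (x + y) = R x + R y + B x y) → (∑ x, sgn (R x)) < 0 →
      (Finset.univ.filter fun x => R x = 0).card = u * (2 ^ m - 1) := by
    intro R hR hneg'
    obtain ⟨h1, h3⟩ := hg R hR
    rw [hV] at h1 h3
    push_cast at h1 h3
    have hS : ∑ x, sgn (R x) = -(2 * (u : ℤ)) := by
      rcases eq_or_eq_neg_of_sq_eq_sq _ (2 * (u : ℤ)) (by rw [h1]; ring) with h | h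
      · omega
      · exact h
    rw [hS] at h3
    have hu1 : 1 ≤ u := Nat.one_le_two_pow
    rw [hum]
    zify [show 1 ≤ 2 * u by omega]
    nlinarith
  by_cases hsgn : (∑ x, sgn (Q0 x)) < 0
  · exact ⟨Q0, hQ0, minus Q0 hQ0 hsgn⟩
  let a : V := Pi.single (.inl ⟨0, hm⟩) 1 + Pi.single (.inr ⟨0, hm⟩) 1
  have ha : Q0 a = 1 := by
    simp only [Q0, a]
    rw [Finset.sum_eq_single ⟨0, hm⟩ (fun i _ hi => by simp [Pi.single_apply, hi])
      (fun h => absurd (Finset.mem_univ _) h)]
    simp
  have hR : ∀ x y : V, Q0 (x + y) + B (x + y) a = (Q0 x + B x a) + (Q0 y + B y a) + B x y := by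
    intro x y
    rw [hQ0, LinearMap.map_add₂]
    ring
  refine ⟨fun x => Q0 x + B x a, hR, minus _ hR ?_⟩
  have e : ∑ x, sgn (Q0 x + B x a) = -∑ x, sgn (Q0 x) := by
    conv_rhs => rw [← Equiv.sum_comp (Equiv.addRight a)]
    rw [← Finset.sum_neg_distrib]
    refine Finset.sum_congr rfl fun x _ => ?_
    rw [Equiv.coe_addRight, hQ0 x a, show Q0 x + Q0 a + B x a = (Q0 x + B x a) + Q0 a by ring,
      ha, sgn_add hF (Q0 x + B x a) 1]
    simp [sgn]
  have hne : ∑ x, sgn (Q0 x) ≠ 0 := fun h => by
    have h1 := (hg Q0 hQ0).1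
    rw [h, hV] at h1
    have : 1 ≤ u := Nat.one_le_two_pow
    push_cast at h1
    nlinarith
  omega

theorem exists_index_two (hF : Fintype.card F = 2) (hm : 1 ≤ m) :
    ∃ H : Subgroup (Matrix.symplecticGroup (Fin m) F),
      H.index = 2 ^ (m - 1) * (2 ^ m - 1) := by
  have h2 := two_eq_zero hF
  obtain ⟨R, hR, hcard⟩ := exists_minus_form hF hm
  let _ : MulAction G (V → F) :=
    { smul := fun g S x => S (app g⁻¹ x)
      one_smul := fun S => funext fun x => by show S (app 1⁻¹ x) = S x; rw [inv_one, app_one]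
      mul_smul := fun g h S => funext fun x => by
        show S (app (g * h)⁻¹ x) = S (app h⁻¹ (app g⁻¹ x))
        rw [mul_inv_rev, app_mul] }
  refine ⟨MulAction.stabilizer G R, ?_⟩
  let shift : V → (V → F) := fun a x => R x + B x a
  let Ω : Set (V → F) := shift '' {a | R a = 0}
  have hR0 : R 0 = 0 := by
    have := hR 0 0
    simpa using this
  have hsm : ∀ v x, ∀ S : V → F, (tau v (1 : F) • S) x = S (x + B x v • v) := fun v x S => by
    show S (app (tau v 1)⁻¹ x) = _
    rw [tau_inv, app_tau, show (-1 : F) = 1 by linear_combination -h2, one_mul]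
  have mv : ∀ a v : V, R a = 0 →
      tau v (1 : F) • shift a = shift (a + (R v + B v a + 1) • v) ∧
        R (a + (R v + B v a + 1) • v) = 0 := by
    intro a v ha
    have hsmul : ∀ (t : F) (y : V), R (t • y) = t * R y := fun t y => by
      rcases zero_or_one hF t with rfl | rfl <;> simp [hR0]
    have hid : ∀ t : F, t * t = t := fun t => by
      rcases zero_or_one hF t with rfl | rfl <;> simp
    refine ⟨funext fun x => ?_, ?_⟩
    · rw [hsm]
      simp only [shift, hR, map_add, map_smul, LinearMap.add_apply, LinearMap.smul_apply, smul_eq_mul,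
        hsmul]
      linear_combination hid (B x v)
    · rw [hR, hsmul, map_smul, smul_eq_mul, ha, bil_swap a v]
      linear_combination hid (R v + B v a + 1) - ((R v + B v a + 1) * B v a) * h2 -
        (R v + B v a + 1) * h2 + (R v + B v a + 1) * h2
  have htau : ∀ (v : V) (c : F), ∀ S ∈ Ω, tau v c • S ∈ Ω := by
    rintro v c S ⟨a, ha, rfl⟩
    rcases zero_or_one hF c with rfl | rfl
    · rw [tau_zero, one_smul]; exact ⟨a, ha, rfl⟩
    · exact ⟨_, (mv a v ha).2, (mv a v ha).1.symm⟩
  let K : Subgroup G :=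
    { carrier := {g | ∀ S, S ∈ Ω ↔ g • S ∈ Ω}
      one_mem' := fun S => by rw [one_smul]
      mul_mem' := fun {g h} hg hh S => by rw [mul_smul]; exact (hh S).trans (hg _)
      inv_mem' := fun {g} hg S => by
        have := hg (g⁻¹ • S)
        rw [smul_inv_smul] at this
        exact this.symm }
  have hK : K = ⊤ := closure_tau_le fun v c S => ⟨htau v c S, fun h => by
    have := htau v c _ h
    rwa [← mul_smul, tau_mul, show c + c = 0 by linear_combination c * h2, tau_zero, one_smul]
      at this⟩
  have horb : MulAction.orbit G R = Ω := by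
    refine Set.Subset.antisymm ?_ ?_
    · rintro _ ⟨g, rfl⟩
      exact ((hK ▸ Subgroup.mem_top g : g ∈ K) R).1 ⟨0, hR0, funext fun x => by simp [shift]⟩
    · rintro _ ⟨a, ha, rfl⟩
      refine ⟨tau a 1, ?_⟩
      have h := (mv 0 a hR0).1
      rw [map_zero, add_zero, show R a = 0 from ha] at h
      simp only [zero_add, one_smul] at h
      rw [← h]
      exact congrArg _ (funext fun x => by simp [shift])
  rw [MulAction.index_stabilizer, horb, ← hcard]
  rw [Set.ncard_image_of_injective, Set.ncard_eq_toFinset_card']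
  · congr 1
    ext x
    simp
  intro a a' h
  by_contra hne
  obtain ⟨y, hy⟩ := exists_bil_eq_one (sub_ne_zero.2 hne)
  have := congrFun h y
  simp only [shift, add_right_inj] at this
  rw [bil_swap, map_sub, this, sub_self, neg_zero] at hy
  exact zero_ne_one hy

end Cfsg.Agent.MinSp
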